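/- ALTSEC: `A₁₃` is not a section of `E₆(q)` outside characteristic 11. -/
import Cfsg.Agent.H26.ASE6
import Cfsg.Agent.H9.ClassTwo

set_option autoImplicit false

universe u

namespace H26.ASE

open Matrix Cfsg.Lie H63 H65 H40.AS

section grp

open Subgroup

/-- A power relation `y x y⁻¹ = x ^ n` for an element `x` of prime order in the image is also
satisfied by an element of the same order upstairs. -/
theorem exists_eig {L S : Type*} [Group L] [Finite L] [Group S] [Finite S] (π : L →* S) {p : ℕ}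
    [hp : Fact p.Prime] {x y : S} (hx : x ∈ π.range) (hy : y ∈ π.range) (hx1 : x ≠ 1)
    (hxp : x ^ p = 1) {n : ℕ} (h : y * x * y⁻¹ = x ^ n) :
    ∃ s g : L, s ≠ 1 ∧ s ^ p = 1 ∧ g * s * g⁻¹ = s ^ n := by
  have hox : orderOf x = p := orderOf_eq_prime hxp hx1
  obtain ⟨P, -, hP, hPx, hN⟩ := H55.Alt.frat π ⊤ (Z := zpowers x)
    (IsPGroup.of_card (n := 1) (by rw [Nat.card_zpowers, hox, pow_one]))
    (by rw [← MonoidHom.range_eq_map]; exact zpowers_le.2 hx)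
  obtain ⟨g1, rfl⟩ := hy
  obtain ⟨g0, -, hg0, e⟩ := hN g1 trivial (H55.Alt.mem_normalizer_zpowers h)
  rw [← e] at h
  obtain ⟨a, b, hb, hab⟩ := Nat.exists_eq_pow_mul_and_not_dvd (orderOf_pos g0).ne' p hp.out.ne_one
  obtain ⟨g, hg⟩ : ∃ g, g = g0 ^ p ^ a := ⟨_, rfl⟩
  have hgb : g ^ b = 1 := by rw [hg, ← pow_mul, ← hab, pow_orderOf_eq_one]
  have hk : ∀ k, π g0 ^ k * x * (π g0 ^ k)⁻¹ = x ^ n ^ k := fun k => by
    induction k with
    | zero => simp
    | succ k ih =>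
      rw [pow_succ', pow_succ' n, pow_mul, ← h, conj_pow, ← ih]; group
  have hgx : π g * x * (π g)⁻¹ = x ^ n := by
    rw [hg, map_pow, hk, pow_eq_pow_iff_modEq, hox, ← ZMod.natCast_eq_natCast_iff, Nat.cast_pow,
      ZMod.pow_card_pow]
  have hPz : ∀ z ∈ P, π z ^ p = 1 ∧ π (g * z * g⁻¹) = π z ^ n := fun z hz => by
    obtain ⟨i, hi⟩ : π z ∈ zpowers x := hPx ▸ mem_map_of_mem π hz
    simp only at hi
    rw [map_mul, map_mul, map_inv, ← hi, ← conj_zpow, hgx, ← zpow_natCast, ← zpow_natCast,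
      ← zpow_natCast, ← _root_.zpow_mul, ← _root_.zpow_mul, ← _root_.zpow_mul, mul_comm i,
      _root_.zpow_mul, zpow_natCast, hxp, _root_.one_zpow, mul_comm i]
    exact ⟨rfl, rfl⟩
  have hn : n.Coprime p := ((Nat.Prime.coprime_iff_not_dvd hp.out).2 fun hd => by
    rw [← hox, orderOf_dvd_iff_pow_eq_one, ← h, conj_eq_one_iff] at hd
    exact hx1 hd).symm
  obtain ⟨c, -, hc⟩ := Nat.exists_mul_mod_eq_one_of_coprime hn hp.out.one_lt
  obtain ⟨Q, ⟨hQP, hQg, a0, ha0, ha1⟩, hmin⟩ := Set.Finite.exists_minimal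
    (Set.toFinite {Q : Subgroup L | Q ≤ P ∧ (∀ z ∈ Q, g * z * g⁻¹ ∈ Q) ∧ ∃ z ∈ Q, π z ≠ 1})
    ⟨P, le_rfl, fun z hz => (mem_normalizer_iff.1 (hg ▸ pow_mem hg0 _) z).1 hz, by
      obtain ⟨z, hz, e⟩ : x ∈ P.map π := hPx ▸ mem_zpowers x
      exact ⟨z, hz, e ▸ hx1⟩⟩
  have hQ : IsPGroup p Q := hP.to_le hQP
  let β : Q →* Q := ((MulAut.conj g).toMonoidHom.comp Q.subtype).codRestrict Q fun z => hQg z z.2
  have hβ : frattini Q ≤ (frattini Q).comap β := H9.frattini_le_of_forall (p := p)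
    (fun z w => by rw [mem_comap, map_commutatorElement]; exact H9.commutatorElement_mem_frattini hQ _ _)
    fun z => by rw [mem_comap, map_pow]; exact H9.pow_mem_frattini hQ _
  have hπ : frattini Q ≤ (π.comp Q.subtype).ker := H9.frattini_le_of_forall (p := p)
    (fun z w => by
      obtain ⟨i, hi⟩ : π z ∈ zpowers x := hPx ▸ mem_map_of_mem π (hQP z.2)
      obtain ⟨j, hj⟩ : π w ∈ zpowers x := hPx ▸ mem_map_of_mem π (hQP w.2)
      rw [MonoidHom.mem_ker, map_commutatorElement, commutatorElement_eq_one_iff_commute]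
      exact (show x ^ i = π z from hi) ▸ (show x ^ j = π w from hj) ▸ Commute.zpow_zpow_self x i j)
    fun z => by rw [MonoidHom.mem_ker, map_pow]; exact (hPz z (hQP z.2)).1
  let _ : CommGroup (Q ⧸ frattini Q) :=
    { (inferInstance : Group (Q ⧸ frattini Q)) with
      mul_comm := fun z w => by
        obtain ⟨z, rfl⟩ := QuotientGroup.mk'_surjective _ z
        obtain ⟨w, rfl⟩ := QuotientGroup.mk'_surjective _ w
        rw [← commutatorElement_eq_one_iff_mul_comm, ← map_commutatorElement]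
        exact (QuotientGroup.eq_one_iff _).2 (H9.commutatorElement_mem_frattini hQ _ _) }
  let mk := QuotientGroup.mk' (frattini Q)
  let φ := QuotientGroup.map _ _ β hβ
  let ρ := QuotientGroup.lift _ (π.comp Q.subtype) hπ
  have hVp : ∀ v : Q ⧸ frattini Q, v ^ p = 1 := fun v => by
    obtain ⟨z, rfl⟩ := QuotientGroup.mk'_surjective _ v
    rw [← map_pow]
    exact (QuotientGroup.eq_one_iff _).2 (H9.pow_mem_frattini hQ _)
  have hρ : ∀ v, ρ (φ v ^ c) = ρ v := fun v => by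
    obtain ⟨z, rfl⟩ := QuotientGroup.mk'_surjective _ v
    rw [map_pow]
    change π (g * z * g⁻¹) ^ c = π z
    rw [(hPz z (hQP z.2)).2, ← pow_mul, pow_eq_pow_mod _ (hPz z (hQP z.2)).1, hc, pow_one]
  have hm : ∀ i : ℕ, g ^ i * a0 * (g ^ i)⁻¹ ∈ Q := fun i => by
    induction i with
    | zero => simpa using ha0
    | succ i ih => simpa only [pow_succ', _root_.mul_inv_rev, mul_assoc] using hQg _ ih
  let f : ℕ → Q ⧸ frattini Q := fun i => mk ⟨_, hm i⟩ ^ c ^ i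
  have hf : ∀ i, φ (f i) ^ c = f (i + 1) := fun i => by
    simp only [f]
    rw [map_pow, ← pow_mul, ← pow_succ]
    congr 1
    exact congrArg mk (Subtype.ext (by
      change g * (g ^ i * a0 * (g ^ i)⁻¹) * g⁻¹ = g ^ (i + 1) * a0 * (g ^ (i + 1))⁻¹
      group))
  have hρf : ∀ i, ρ (f i) = π a0 := fun i => by
    induction i with
    | zero => simp only [f, pow_zero, pow_one]; change π _ = _; simp
    | succ i ih => rw [← hf, hρ, ih]
  have ho : ∀ z ∈ P, π z ≠ 1 → orderOf (π z) = p := fun z hz h1 => orderOf_eq_prime (hPz z hz).1 h1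
  have hfb : f b = f 0 := by
    have h1 := hρf b
    have h2 : mk ⟨_, hm b⟩ = mk ⟨a0, ha0⟩ := congrArg mk (Subtype.ext (by simp [hgb]))
    have h3 : mk ⟨_, hm 0⟩ = mk ⟨a0, ha0⟩ := congrArg mk (Subtype.ext (by simp))
    simp only [f, h2, h3, map_pow] at h1 ⊢
    change π a0 ^ c ^ b = π a0 at h1
    conv_rhs at h1 => rw [← pow_one (π a0)]
    rw [pow_eq_pow_iff_modEq, ho a0 (hQP ha0) ha1] at h1
    rw [pow_eq_pow_mod _ (hVp _), h1, ← pow_eq_pow_mod _ (hVp _), pow_zero]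
  obtain ⟨w, hw⟩ := QuotientGroup.mk'_surjective _ (∏ i ∈ Finset.range b, f i)
  have hw1 : π w ≠ 1 := by
    have h1 : ∀ k, ρ (∏ i ∈ Finset.range k, f i) = π a0 ^ k := fun k => by
      induction k with
      | zero => simp
      | succ k ih => rw [Finset.prod_range_succ, map_mul, ih, hρf, pow_succ]
    have h2 := h1 b
    rw [← hw] at h2
    change π w = _ at h2
    rwa [h2, ne_eq, ← orderOf_dvd_iff_pow_eq_one, ho a0 (hQP ha0) ha1]
  have hw2 : φ (mk w) = mk w ^ n := by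
    have h1 : φ (mk w) ^ c = mk w := by
      rw [show mk w = _ from hw, map_prod, ← Finset.prod_pow]
      simp only [hf]
      apply mul_right_cancel (b := f 0)
      rw [← Finset.prod_range_succ', Finset.prod_range_succ, hfb]
    conv_rhs => rw [← h1, ← pow_mul, mul_comm, pow_eq_pow_mod _ (hVp _), hc, pow_one]
  have htop : zpowers w = ⊤ := by
    have h1 := hmin (y := ((zpowers (mk w)).comap mk).map Q.subtype) ⟨(map_subtype_le _).trans hQP, ?_,
      w, mem_map_of_mem _ (mem_zpowers _), hw1⟩ (map_subtype_le _)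
    · refine frattini_nongenerating ?_
      rw [← QuotientGroup.ker_mk' (frattini Q), ← comap_map_eq, MonoidHom.map_zpowers, eq_top_iff]
      intro z _
      obtain ⟨z', hz', e⟩ := h1 z.2
      exact (Subtype.ext e : z' = z) ▸ hz'
    · rintro _ ⟨z, ⟨i, hi⟩, rfl⟩
      refine ⟨β z, ?_, rfl⟩
      change φ (mk z) ∈ zpowers (mk w)
      rw [← hi, map_zpow, hw2]
      exact zpow_mem (pow_mem (mem_zpowers _) _) _
  obtain ⟨k, hk'⟩ := mem_powers_iff_mem_zpowers.2 (htop ▸ mem_top (β w))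
  have hk2 : (w : L) ^ k = g * w * g⁻¹ := congrArg Subtype.val hk'
  have hkn : k ≡ n [MOD p] := by
    rw [← ho w (hQP w.2) hw1, ← pow_eq_pow_iff_modEq, ← map_pow, hk2, (hPz w (hQP w.2)).2]
  obtain ⟨j, hj⟩ := IsPGroup.iff_orderOf.1 hQ w
  rw [← orderOf_coe] at hj
  obtain _ | j := j
  · rw [pow_zero, orderOf_eq_one_iff] at hj
    exact absurd (by rw [hj, map_one]) hw1
  have hs : ((w : L) ^ p ^ j) ^ p = 1 := by rw [← pow_mul, ← pow_succ, ← hj, pow_orderOf_eq_one]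
  refine ⟨w ^ p ^ j, g, fun h1 => ?_, hs, ?_⟩
  · rw [← orderOf_dvd_iff_pow_eq_one, hj, Nat.pow_dvd_pow_iff_le_right hp.out.one_lt] at h1
    omega
  · rw [← conj_pow, ← hk2, ← pow_mul, mul_comm, pow_mul, pow_eq_pow_mod _ hs, hkn, ← pow_eq_pow_mod _ hs]

end grp

section poly

variable {R : Type*} [CommRing R]

/-- Power sums of the nine differences. -/
def bl (k : ℕ) (x0 x1 x2 y0 y1 y2 : R) : R :=
  (x0 - y0) ^ k + (x0 - y1) ^ k + (x0 - y2) ^ k + (x1 - y0) ^ k + (x1 - y1) ^ k + (x1 - y2) ^ k +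
    (x2 - y0) ^ k + (x2 - y1) ^ k + (x2 - y2) ^ k

theorem bl_eq {x0 x1 x2 y0 y1 y2 e f e' f' : R} (hx : x0 + x1 + x2 = 0) (hy : y0 + y1 + y2 = 0)
    (he : e = x0 * x1 + x0 * x2 + x1 * x2) (hf : f = x0 * x1 * x2)
    (he' : e' = y0 * y1 + y0 * y2 + y1 * y2) (hf' : f' = y0 * y1 * y2) :
    bl 2 x0 x1 x2 y0 y1 y2 = -6 * (e + e') ∧
    bl 5 x0 x1 x2 y0 y1 y2 = 15 * e' * f' - 60 * f * e' + 60 * e * f' - 15 * e * f ∧
    bl 10 x0 x1 x2 y0 y1 y2 = 45 * e' ^ 2 * f' ^ 2 - 6 * e' ^ 5 - 2520 * f * e' ^ 2 * f' +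
      1260 * f ^ 2 * e' ^ 2 + 720 * e * e' * f' ^ 2 - 180 * e * e' ^ 4 - 6300 * e * f * e' * f' +
      720 * e * f ^ 2 * e' + 1260 * e ^ 2 * f' ^ 2 - 840 * e ^ 2 * e' ^ 3 - 2520 * e ^ 2 * f * f' +
      45 * e ^ 2 * f ^ 2 - 840 * e ^ 3 * e' ^ 2 - 180 * e ^ 4 * e' - 6 * e ^ 5 := by
  obtain rfl : x2 = -x0 - x1 := by linear_combination hx
  obtain rfl : y2 = -y0 - y1 := by linear_combination hy
  subst he hf he' hf'
  unfold bl
  exact ⟨by ring, by ring, by ring⟩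

theorem sum_27 (f : Fin 27 → R) : ∑ j, f j = f 0 + (f 1 + (f 2 + (f 3 + (f 4 + (f 5 + (f 6 + (f 7 + (f 8 + (f 9 + (f 10 + (f 11 + (f 12 + (f 13 + (f 14 + (f 15 + (f 16 + (f 17 + (f 18 + (f 19 + (f 20 + (f 21 + (f 22 + (f 23 + (f 24 + (f 25 + (f 26 + 0)))))))))))))))))))))))))) := by
  rw [Fin.sum_univ_def]; rfl

theorem exists_coord (a : Fin 27 → R) (h : ∀ t ∈ L27, a t.1 + a t.2.1 + a t.2.2.1 = 0) :
    ∃ x0 x1 x2 y0 y1 y2 z0 z1 z2 : R, x0 + x1 + x2 = 0 ∧ y0 + y1 + y2 = 0 ∧ z0 + z1 + z2 = 0 ∧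
      ∀ k, ∑ j, (3 * a j) ^ k = bl k x0 x1 x2 y0 y1 y2 + bl k y0 y1 y2 z0 z1 z2 +
        bl k z0 z1 z2 x0 x1 x2 := by
  simp only [L27, List.forall_mem_cons] at h
  obtain ⟨t0, t1, t2, t3, t4, t5, t6, t7, t8, t9, t10, -, t12, t13, t14, t15, t16, -, -, -, t20, t21, -, -, t24, -, -, -, t28, -, -, -, -, -, -, -, -, -, -, -, -, -, t42, -, -, -⟩ := h
  have h22 : a 22 = -a 1 - a 3 := by linear_combination t5
  have h24 : a 24 = -a 1 - a 5 := by linear_combination t7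
  have h25 : a 25 = -a 1 - a 6 := by linear_combination t8
  have h23 : a 23 = -a 2 - a 3 := by linear_combination t10
  have h8 : a 8 = a 1 - a 2 + a 5 := by linear_combination t12 - h24
  have h9 : a 9 = a 1 - a 2 + a 6 := by linear_combination t13 - h25
  have h21 : a 21 = -a 1 + a 2 - a 5 - a 6 := by linear_combination t21 - h9
  have h12 : a 12 = a 2 + a 3 - a 5 := by linear_combination t24 - h23
  have h14 : a 14 = a 2 + a 3 - a 6 := by linear_combination t28 - h23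
  have h15 : a 15 = a 1 - a 2 - a 3 + a 5 + a 6 := by linear_combination t42 - h12 - h25
  have h17 : a 17 = -a 0 + a 1 + a 3 := by linear_combination t0 - h22
  have h18 : a 18 = -a 0 + a 2 + a 3 := by linear_combination t1 - h23
  have h19 : a 19 = -a 0 + a 1 + a 5 := by linear_combination t2 - h24
  have h20 : a 20 = -a 0 + a 1 + a 6 := by linear_combination t3 - h25
  have h26 : a 26 = -a 0 + a 1 - a 2 + a 5 + a 6 := by linear_combination t4 - h21
  have h4 : a 4 = a 0 - a 1 - a 2 - a 3 := by linear_combination t6 - h18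
  have h7 : a 7 = a 0 - 2 * a 1 + a 2 - a 5 - a 6 := by linear_combination t9 - h26
  have h10 : a 10 = a 0 - a 1 - a 5 - a 6 := by linear_combination t14 - h26
  have h11 : a 11 = a 0 - a 1 - a 3 - a 5 := by linear_combination t15 - h19
  have h13 : a 13 = a 0 - a 1 - a 3 - a 6 := by linear_combination t16 - h20
  have h16 : a 16 = -a 0 + 2 * a 1 + a 3 + a 5 + a 6 := by linear_combination t20 - h4 - h21
  obtain ⟨x0, x0e⟩ : ∃ t, t = 2 * a 1 + a 2 + 2 * a 3 + a 6 := ⟨_, rfl⟩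
  obtain ⟨x1, x1e⟩ : ∃ t, t = -a 1 - 2 * a 2 - a 3 + a 6 := ⟨_, rfl⟩
  obtain ⟨x2, x2e⟩ : ∃ t, t = -a 1 + a 2 - a 3 - 2 * a 6 := ⟨_, rfl⟩
  obtain ⟨y0, y0e⟩ : ∃ t, t = -(3 * a 0) + 2 * a 1 + a 2 + 2 * a 3 + a 6 := ⟨_, rfl⟩
  obtain ⟨y1, y1e⟩ : ∃ t, t = 2 * a 1 - 2 * a 2 - a 3 + 3 * a 5 + a 6 := ⟨_, rfl⟩
  obtain ⟨y2, y2e⟩ : ∃ t, t = 3 * a 0 - 4 * a 1 + a 2 - a 3 - 3 * a 5 - 2 * a 6 := ⟨_, rfl⟩
  obtain ⟨z0, z0e⟩ : ∃ t, t = 2 * a 1 - 2 * a 2 - a 3 + a 6 := ⟨_, rfl⟩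
  obtain ⟨z1, z1e⟩ : ∃ t, t = -a 1 + a 2 - a 3 + a 6 := ⟨_, rfl⟩
  obtain ⟨z2, z2e⟩ : ∃ t, t = -a 1 + a 2 + 2 * a 3 - 2 * a 6 := ⟨_, rfl⟩
  have e0 : 3 * a 0 = x0 - y0 := by linear_combination -x0e + y0e
  have e1 : 3 * a 1 = z0 - x1 := by linear_combination -z0e + x1e
  have e2 : 3 * a 2 = z1 - x1 := by linear_combination -z1e + x1e
  have e3 : 3 * a 3 = z2 - x2 := by linear_combination -z2e + x2e
  have e4 : 3 * a 4 = x1 - y0 := by linear_combination 3 * h4 - x1e + y0e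
  have e5 : 3 * a 5 = y1 - z0 := by linear_combination -y1e + z0e
  have e6 : 3 * a 6 = z1 - x2 := by linear_combination -z1e + x2e
  have e7 : 3 * a 7 = y2 - z0 := by linear_combination 3 * h7 - y2e + z0e
  have e8 : 3 * a 8 = y1 - z1 := by linear_combination 3 * h8 - y1e + z1e
  have e9 : 3 * a 9 = z0 - x2 := by linear_combination 3 * h9 - z0e + x2e
  have e10 : 3 * a 10 = y2 - z1 := by linear_combination 3 * h10 - y2e + z1e
  have e11 : 3 * a 11 = y2 - z2 := by linear_combination 3 * h11 - y2e + z2e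
  have e12 : 3 * a 12 = x0 - y1 := by linear_combination 3 * h12 - x0e + y1e
  have e13 : 3 * a 13 = x2 - y0 := by linear_combination 3 * h13 - x2e + y0e
  have e14 : 3 * a 14 = z2 - x1 := by linear_combination 3 * h14 - z2e + x1e
  have e15 : 3 * a 15 = y1 - z2 := by linear_combination 3 * h15 - y1e + z2e
  have e16 : 3 * a 16 = x0 - y2 := by linear_combination 3 * h16 - x0e + y2e
  have e17 : 3 * a 17 = y0 - z1 := by linear_combination 3 * h17 - y0e + z1e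
  have e18 : 3 * a 18 = y0 - z0 := by linear_combination 3 * h18 - y0e + z0e
  have e19 : 3 * a 19 = x2 - y2 := by linear_combination 3 * h19 - x2e + y2e
  have e20 : 3 * a 20 = y0 - z2 := by linear_combination 3 * h20 - y0e + z2e
  have e21 : 3 * a 21 = x2 - y1 := by linear_combination 3 * h21 - x2e + y1e
  have e22 : 3 * a 22 = z1 - x0 := by linear_combination 3 * h22 - z1e + x0e
  have e23 : 3 * a 23 = z0 - x0 := by linear_combination 3 * h23 - z0e + x0e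
  have e24 : 3 * a 24 = x1 - y1 := by linear_combination 3 * h24 - x1e + y1e
  have e25 : 3 * a 25 = z2 - x0 := by linear_combination 3 * h25 - z2e + x0e
  have e26 : 3 * a 26 = x1 - y2 := by linear_combination 3 * h26 - x1e + y2e
  refine ⟨x0, x1, x2, y0, y1, y2, z0, z1, z2, by linear_combination x0e + x1e + x2e,
    by linear_combination y0e + y1e + y2e, by linear_combination z0e + z1e + z2e, fun k => ?_⟩
  rw [sum_27]
  simp only [e0, e1, e2, e3, e4, e5, e6, e7, e8, e9, e10, e11, e12, e13, e14, e15, e16, e17, e18, e19, e20, e21, e22, e23, e24, e25, e26, bl]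
  abel

theorem z11 : (40 * 3 ^ 10 : ZMod 11) ≠ 0 ∧ (2 : ZMod 11) ^ 2 ≠ 1 ∧ (2 : ZMod 11) ^ 5 ≠ 1 ∧
    (2 : ZMod 11) ≠ 0 ∧ (∀ c : ZMod 11, c ≠ 0 → ∃ k < 10, c = 2 ^ k) ∧
    (∀ c : ZMod 11, c ≠ 0 → c ^ 10 = 1) ∧
    (Finset.univ.erase (0 : ZMod 11)).card = 10 := by decide +kernel

theorem fact11 : Fact (Nat.Prime 11) := ⟨by norm_num⟩

attribute [local instance] fact11

/-- The tenth power sum vanishes when the second and the fifth do. -/
theorem p10_eq_zero (a : Fin 27 → ZMod 11) (h : ∀ t ∈ L27, a t.1 + a t.2.1 + a t.2.2.1 = 0)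
    (h2 : ∑ j, a j ^ 2 = 0) (h5 : ∑ j, a j ^ 5 = 0) : ∑ j, a j ^ 10 = 0 := by
  obtain ⟨x0, x1, x2, y0, y1, y2, z0, z1, z2, hx, hy, hz, hk⟩ := exists_coord a h
  simp only [mul_pow, ← Finset.mul_sum] at hk
  obtain ⟨e1, he1⟩ : ∃ t, t = x0 * x1 + x0 * x2 + x1 * x2 := ⟨_, rfl⟩
  obtain ⟨e2, he2⟩ : ∃ t, t = y0 * y1 + y0 * y2 + y1 * y2 := ⟨_, rfl⟩
  obtain ⟨e3, he3⟩ : ∃ t, t = z0 * z1 + z0 * z2 + z1 * z2 := ⟨_, rfl⟩
  obtain ⟨f1, hf1⟩ : ∃ t, t = x0 * x1 * x2 := ⟨_, rfl⟩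
  obtain ⟨f2, hf2⟩ : ∃ t, t = y0 * y1 * y2 := ⟨_, rfl⟩
  obtain ⟨f3, hf3⟩ : ∃ t, t = z0 * z1 * z2 := ⟨_, rfl⟩
  obtain ⟨a2, a5, a10⟩ := bl_eq hx hy he1 hf1 he2 hf2
  obtain ⟨b2, b5, b10⟩ := bl_eq hy hz he2 hf2 he3 hf3
  obtain ⟨c2, c5, c10⟩ := bl_eq hz hx he3 hf3 he1 hf1
  have k2 := hk 2
  have k5 := hk 5
  have k10 := hk 10
  rw [h2, a2, b2, c2] at k2
  rw [h5, a5, b5, c5] at k5
  rw [a10, b10, c10] at k10
  have h11 : (11 : ZMod 11) = 0 := rfl
  clear a2 a5 a10 b2 b5 b10 c2 c5 c10 he1 he2 he3 hf1 hf2 hf3 hk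
  obtain rfl : e3 = -e1 - e2 := by linear_combination k2 - (e1 + e2 + e3) * h11
  apply mul_left_cancel₀ z11.1
  have h0 := congrArg (· ^ 2) k5
  linear_combination 40 * k10 - 7 * h0

theorem eq_zero_of_double (a : Fin 27 → ZMod 11) (h : ∀ t ∈ L27, a t.1 + a t.2.1 + a t.2.2.1 = 0)
    (hm : Finset.univ.val.map a = Finset.univ.val.map fun j => 2 * a j) (j : Fin 27) : a j = 0 := by
  have h1 : ∀ {M : Type} [AddCommMonoid M] (F : ZMod 11 → M), ∑ j, F (a j) = ∑ j, F (2 * a j) :=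
    fun F => by
      have h2 := congrArg (fun m => (m.map F).sum) hm
      simp only [Multiset.map_map] at h2
      exact h2
  have hp : ∀ k, (2 : ZMod 11) ^ k ≠ 1 → ∑ j, a j ^ k = 0 := fun k hk => by
    have h2 := h1 (· ^ k)
    simp only [mul_pow, ← Finset.mul_sum] at h2
    exact (mul_left_eq_self₀.1 h2.symm).resolve_left hk
  have h10 := p10_eq_zero a h (hp 2 z11.2.1) (hp 5 z11.2.2.1)
  let cnt : ZMod 11 → ℕ := fun c => (Finset.univ.filter fun j => a j = c).card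
  have hc : ∀ c, cnt (2 * c) = cnt c := fun c => by
    have h2 := h1 fun z => if z = 2 * c then 1 else 0
    simp only [mul_right_inj' z11.2.2.2.1] at h2
    simpa only [cnt, Finset.card_filter] using h2
  have hc1 : ∀ k, cnt (2 ^ k) = cnt 1 := fun k => by
    induction k with
    | zero => rfl
    | succ k ih => rw [pow_succ', hc, ih]
  have hN := Finset.card_eq_sum_card_fiberwise (f := a) (s := Finset.univ.filter fun j => a j ≠ 0)
    (t := Finset.univ.erase 0) fun j hj => by simpa using hj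
  rw [Finset.sum_congr rfl (g := fun _ => cnt 1) fun c hc => by
    obtain ⟨k, -, e⟩ := z11.2.2.2.2.1 c (Finset.mem_erase.1 hc).1
    rw [← hc1 k, ← e, Finset.filter_filter]
    exact congrArg _ (Finset.filter_congr fun j _ =>
      ⟨fun h => h.2, fun h => ⟨h ▸ (Finset.mem_erase.1 hc).1, h⟩⟩), Finset.sum_const,
    z11.2.2.2.2.2.2, smul_eq_mul] at hN
  have h11 : 11 ∣ (Finset.univ.filter fun j => a j ≠ 0).card := by
    rw [← ZMod.natCast_eq_zero_iff, Finset.card_filter, Nat.cast_sum]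
    refine (Finset.sum_congr rfl fun j _ => ?_).trans h10
    by_cases hj : a j = 0
    · rw [if_neg (not_not.2 hj), hj, Nat.cast_zero, zero_pow (by norm_num)]
    · rw [if_pos hj, Nat.cast_one, z11.2.2.2.2.2.1 _ hj]
  have h27 := Finset.card_le_univ (Finset.univ.filter fun j => a j ≠ 0)
  rw [Fintype.card_fin] at h27
  have h0 : (Finset.univ.filter fun j => a j ≠ 0).card = 0 := by omega
  exact not_not.1 (Finset.filter_eq_empty_iff.1 (Finset.card_eq_zero.1 h0) (Finset.mem_univ j))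

end poly

theorem L27_tp : ∀ t ∈ L27, ts27 t.1 t.2.1 ≠ 0 ∧ tp27 t.1 t.2.1 = t.2.2.1 := by decide +kernel

/-- No element of order `11` of the 27-dimensional group is conjugate to its square. -/
theorem not_conj_sq {p : ℕ} [hp : Fact p.Prime] (h11 : p ≠ 11) {s g : GL (Fin 27) (Kb p)}
    (hs : s ∈ repE6v27.G (Kb p)) (h : s ^ 11 = 1) (hg : g * s * g⁻¹ = s ^ 2) : s = 1 := by
  classical
  have := fact11
  obtain ⟨k, hk, h1⟩ := conj_diag hs (e := 11) (fun h0 => h11 ((Nat.prime_dvd_prime_iff_eq hp.out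
    this.out).1 ((CharP.cast_eq_zero_iff (Kb p) p 11).1 h0))) h
  obtain ⟨d, hd⟩ : ∃ d, (k * s * k⁻¹).val = diagonal d := ⟨_, h1.diagonal_diag.symm⟩
  have hm := G27_le (mul_mem (mul_mem hk hs) (inv_mem hk))
  have hd11 : ∀ j, d j ^ 11 = 1 := fun j => by
    have h2 : (k * s * k⁻¹).val ^ 11 = 1 := by
      rw [← Units.val_pow_eq_pow_val, conj_pow, h]; simp
    rw [hd, diagonal_pow] at h2
    simpa using congrFun (congrFun h2 j) j
  by_contra hs1
  obtain ⟨j0, hj0⟩ : ∃ a, d a ≠ 1 := by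
    by_contra h2
    push Not at h2
    refine hs1 (conj_eq_one_iff.1 (Units.ext (u := k * s * k⁻¹) ?_))
    rw [hd, show d = fun _ => 1 from funext h2]; simp
  have hζ : IsPrimitiveRoot (d j0) 11 := orderOf_eq_prime (hd11 j0) hj0 ▸ IsPrimitiveRoot.orderOf _
  choose n _ hn using fun j => hζ.eq_pow_of_pow_eq_one (hd11 j)
  let lg : Kb p → ZMod 11 := fun z => if h : ∃ i : ℕ, d j0 ^ i = z then (h.choose : ℕ) else 0
  have hlg : ∀ i : ℕ, lg (d j0 ^ i) = i := fun i => by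
    have h2 : ∃ i' : ℕ, d j0 ^ i' = d j0 ^ i := ⟨i, rfl⟩
    simp only [lg, dif_pos h2]
    have h3 := h2.choose_spec
    rwa [(hζ.isOfFinOrder (by norm_num)).pow_eq_pow_iff_modEq, ← hζ.eq_orderOf, ← ZMod.natCast_eq_natCast_iff] at h3
  have hch : Finset.univ.val.map d = Finset.univ.val.map fun j => d j ^ 2 := by
    have h2 : (k * g * k⁻¹) * (k * s * k⁻¹) * (k * g * k⁻¹)⁻¹ = (k * s * k⁻¹) ^ 2 := by
      rw [conj_pow, ← hg]; group
    have h3 := Matrix.charpoly_units_conj (k * g * k⁻¹) (k * s * k⁻¹).val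
    rw [← Matrix.coe_units_inv, ← Units.val_mul, ← Units.val_mul, h2, Units.val_pow_eq_pow_val, hd,
      diagonal_pow, charpoly_diagonal, charpoly_diagonal] at h3
    rw [← Polynomial.roots_multiset_prod_X_sub_C (Finset.univ.val.map d),
      ← Polynomial.roots_multiset_prod_X_sub_C (Finset.univ.val.map fun j => d j ^ 2),
      Multiset.map_map, Multiset.map_map]
    exact congrArg _ h3.symm
  have h4 := eq_zero_of_double (fun j => (n j : ZMod 11)) (fun t ht => by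
    have h5 := diag_triple exists_ne_one hm hd (L27_tp t ht).1
    rw [(L27_tp t ht).2, ← hn t.1, ← hn t.2.1, ← hn t.2.2.1, ← pow_add, ← pow_add,
      hζ.pow_eq_one_iff_dvd, ← ZMod.natCast_eq_zero_iff] at h5
    simpa using h5) (by
    have h5 := congrArg (Multiset.map lg) hch
    rw [Multiset.map_map, Multiset.map_map] at h5
    convert h5 using 2 with j _ j
    · rw [Function.comp_apply, ← hn j, hlg]
    · rw [Function.comp_apply, ← hn j, ← pow_mul, hlg]; push_cast; ring) j0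
  rw [ZMod.natCast_eq_zero_iff, ← hζ.pow_eq_one_iff_dvd, hn] at h4
  exact hj0 h4

/-- An eleven-cycle. -/
def x13 : Equiv.Perm (Fin 13) := List.formPerm [0, 1, 2, 3, 4, 5, 6, 7, 8, 9, 10]
/-- An even permutation that squares it. -/
def y13 : Equiv.Perm (Fin 13) :=
  List.formPerm [1, 2, 4, 8, 5, 10, 9, 7, 3, 6] * List.formPerm [11, 12]

theorem xy13 : Equiv.Perm.sign x13 = 1 ∧ Equiv.Perm.sign y13 = 1 ∧ x13 ≠ 1 ∧ x13 ^ 11 = 1 ∧
    y13 * x13 * y13⁻¹ = x13 ^ 2 := by decide +kernel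

theorem job13 : Job13.{u} := by
  intro F _ _ p _ _ h11 r H K _ hK
  by_contra hr
  have := fact11
  obtain ⟨L, hL, _, π, hπ⟩ := jobCov F p r 13 (by omega) H K hK
  obtain ⟨s, g, h1, h2, h3⟩ := exists_eig π (x := x13) (y := y13) (hπ ▸ xy13.1) (hπ ▸ xy13.2.1)
    xy13.2.2.1 xy13.2.2.2.1 xy13.2.2.2.2
  exact h1 (Subtype.ext (not_conj_sq h11 (hL s.2) (g := g) (congrArg Subtype.val h2)
    (congrArg Subtype.val h3)))

end H26.ASE
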