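import Cfsg.Agent.H53.C6Spec

/-! Tower C6P, job A: the centraliser of `P` is monomial. -/

set_option autoImplicit false
set_option linter.unusedSectionVars false

namespace H26.C6A

open Matrix Cfsg.Geo H25 Equiv H53.C6

universe u

variable {F : Type u} [Field F]

/-- the diagonal block on the indices `e a` -/
noncomputable def blk {ι κ : Type} [Fintype ι] [DecidableEq ι] [Fintype κ] [DecidableEq κ]
    (X : Subgroup (GL ι F)) (e : κ → ι) (he : Function.Injective e)
    (h : ∀ y ∈ X, ∀ a j, (∀ b, j ≠ e b) → y.val (e a) j = 0) : X →* GL κ F :=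
  MonoidHom.toHomUnits
    { toFun := fun y => y.1.val.submatrix e e
      map_one' := by simp [submatrix_one e he]
      map_mul' := fun y z => by
        ext a b
        simp only [Subgroup.coe_mul, Units.val_mul, submatrix_apply, mul_apply]
        rw [← Finset.sum_image (s := Finset.univ) (g := e)
          (f := fun j => y.1.val (e a) j * z.1.val j (e b)) (fun _ _ _ _ c => he c)]
        refine (Finset.sum_subset (Finset.subset_univ _) fun j _ hj => ?_).symm
        rw [h y.1 y.2 a j fun b c => hj (by simp [c]), zero_mul] }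

theorem blk_apply {ι κ : Type} [Fintype ι] [DecidableEq ι] [Fintype κ] [DecidableEq κ]
    (X : Subgroup (GL ι F)) (e : κ → ι) (he : Function.Injective e)
    (h : ∀ y ∈ X, ∀ a j, (∀ b, j ≠ e b) → y.val (e a) j = 0) (y : X) (a b : κ) :
    (blk X e he h y).val a b = y.1.val (e a) (e b) := rfl

theorem det_blk {ι κ : Type} [Fintype ι] [DecidableEq ι] [Fintype κ] [DecidableEq κ]
    {X : Subgroup (GL ι F)} (f : X →* GL κ F) {z : X} (hz : z ∈ commutator X) :
    (f z).val.det = 1 := by
  have := Abelianization.commutator_subset_ker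
    ((GeneralLinearGroup.det : GL κ F →* Fˣ).comp f) hz
  simpa [Units.ext_iff] using this

theorem diag_of_sq {A : Matrix (Fin 2) (Fin 2) F} (h2 : (2 : F) ≠ 0) (h : A * A = 1)
    (hd : A.det = 1) : A 0 1 = 0 := by
  have e1 := congrFun (congrFun h 0) 0
  have e2 := congrFun (congrFun h 0) 1
  have e3 := congrFun (congrFun h 1) 1
  rw [det_fin_two] at hd
  simp [mul_apply, Fin.sum_univ_two] at e1 e2 e3
  by_contra c
  have e4 : A 0 0 + A 1 1 = 0 := mul_left_cancel₀ c (by linear_combination e2)
  exact h2 (by linear_combination -e1 - hd + A 0 0 * e4)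

theorem jobA : JobA.{u} := by
  intro dka F _ _ r _ ω G hf hb h2 nd y hy cy
  have hp := hf.prime
  have := Fact.mk hp
  have ho := hf.ord
  have h5 : 5 ≤ r := by rcases hf.hr with h | h <;> omega
  have hodd : Odd r := hp.odd_of_ne_two (by omega)
  have t2 : (2 : ZMod r) ≠ 0 := fun e => by
    have := (ZMod.natCast_eq_zero_iff 2 r).1 (by exact_mod_cast e)
    have := Nat.le_of_dvd two_pos this
    omega
  have nn : ∀ k : ZMod r, k ≠ 0 → k ≠ -k := fun k hk e =>
    mul_ne_zero t2 hk (by linear_combination e)
  let X := G ⊓ Subgroup.centralizer {dp r ω 2}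
  have mX : ∀ {y}, y ∈ G → Commute y (dp r ω 2) → y ∈ X := fun a b =>
    ⟨a, Subgroup.mem_centralizer_singleton_iff.2 b⟩
  have z0 : ∀ y ∈ X, ∀ i j, j ≠ i → j ≠ -i → y.val i j = 0 := fun y hy i j a b =>
    eq_zero_of_comm_dg (Subgroup.mem_centralizer_singleton_iff.1 hy.2) fun e => by
      rcases sq_eq_sq_iff_eq_or_eq_neg.1 ((w_inj ho).1 e).symm with c | c
      exacts [a c, b c]
  have he : ∀ k : ZMod r, k ≠ 0 → Function.Injective ![k, -k] := fun k hk a b c => by
    fin_cases a <;> fin_cases b <;> simp_all [nn k hk, (nn k hk).symm]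
  have hz : ∀ k : ZMod r, ∀ y ∈ X, ∀ (a : Fin 2) j, (∀ b, j ≠ ![k, -k] b) →
      y.val (![k, -k] a) j = 0 := fun k y hy a j c => by
    have c0 := c 0
    have c1 := c 1
    fin_cases a
    · exact z0 y hy _ _ c0 c1
    · exact z0 y hy _ _ c1 (by simpa using c0)
  have hz0 : ∀ y ∈ X, ∀ (a : Unit) j, (∀ b : Unit, j ≠ (fun _ => (0 : ZMod r)) b) →
      y.val ((fun _ => (0 : ZMod r)) a) j = 0 := fun y hy a j c =>
    z0 y hy _ _ (c ()) (by simpa using c ())
  have mon : ∀ k : ZMod r, k ≠ 0 → (y.val k (-k) = 0 ∧ y.val (-k) k = 0) ∨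
      (y.val k k = 0 ∧ y.val (-k) (-k) = 0) := fun k hk => by
    by_contra hn
    rw [not_or] at hn
    let f := blk X _ (he k hk) (hz k)
    have cd : Commute (dp r ω 1) (dp r ω 2) := (Commute.all _ _).map dg
    have ev := dka F f.range r (w ω k) (w ω (-k)) (f ⟨_, mX hb.d cd⟩)
      (f ⟨_, mX hb.tt (comm_dp_tt 1).symm⟩) (f ⟨y, mX hy cy⟩) hp h5
      (by
        rw [div_eq_mul_inv, ← w_sub ho]
        refine orderOf_eq_prime (by rw [w_pow ho]; simp) ?_
        rw [Ne, w_eq_one_iff ho, sub_eq_zero]; exact nn k hk)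
      ⟨_, rfl⟩
      (by
        ext a b
        fin_cases a <;> fin_cases b <;>
          simp [f, blk_apply, dp, dg_val, nn k hk, (nn k hk).symm])
      ⟨_, rfl⟩
      (by
        ext a b
        fin_cases a <;> fin_cases b <;>
          simp [f, blk_apply, tt_apply, nn k hk, (nn k hk).symm])
      ⟨_, rfl⟩ hn.1 hn.2
    rw [MonoidHom.range_eq_map, ← Subgroup.map_commutator] at ev
    have ev2 : 2 ∣ Nat.card (commutator X) :=
      ev.two_dvd.trans (Subgroup.card_map_dvd _ _)
    obtain ⟨⟨z, hzc⟩, oz⟩ := exists_prime_orderOf_dvd_card' 2 ev2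
    have z1 : z * z = 1 := by
      have := pow_orderOf_eq_one (⟨z, hzc⟩ : commutator X)
      rw [oz, sq] at this
      exact congrArg Subtype.val this
    obtain ⟨v, hv⟩ := exists_dg (g := z.1) fun i j c => by
      by_cases c1 : j = -i
      · have hi : i ≠ 0 := by rintro rfl; exact c (by simpa using c1.symm)
        have := diag_of_sq (A := (blk X _ (he i hi) (hz i) z).val) h2
          (by rw [← Units.val_mul, ← map_mul, z1, map_one, Units.val_one]) (det_blk _ hzc)
        rw [c1]; exact this
      · exact z0 _ z.2 _ _ (Ne.symm c) c1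
    have v0 : v 0 = 1 := by
      have := det_blk (blk X _ (fun _ _ _ => rfl) hz0) hzc
      rw [det_unique] at this
      change z.1.val 0 0 = 1 at this
      rw [hv] at this
      exact Units.ext (by simpa [dg_val] using this)
    have vv : v * v = 1 := dg_inj (by
      rw [map_mul, map_one, ← hv]; exact congrArg Subtype.val z1)
    have n1 := nd v (hv ▸ z.2.1)
    have v1 : v = 1 := funext fun i => by
      have a1 : v i ^ r = 1 := by rw [n1 i, ← n1 0, v0, one_pow]
      obtain ⟨m, hm⟩ := hodd
      have a2 : v i ^ 2 = 1 := by rw [sq]; exact congrFun vv i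
      rw [hm, pow_succ, pow_mul, a2, one_pow, one_mul] at a1
      exact a1
    have : (⟨z, hzc⟩ : commutator X) = 1 :=
      Subtype.ext (Subtype.ext (by rw [hv, v1, map_one]; rfl))
    rw [this, orderOf_one] at oz
    omega
  have yX := mX hy cy
  have row : ∀ i, y.val i i = 0 → y.val (-i) (-i) = 0 := fun i c => by
    by_cases hi : i = 0
    · simpa [hi] using c
    rcases mon i hi with h | h
    · refine absurd (det_eq_zero_of_row_eq_zero i fun j => ?_)
        (y.isUnit.map detMonoidHom).ne_zero
      by_cases a : j = i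
      · rw [a, c]
      by_cases b : j = -i
      · rw [b, h.1]
      exact z0 y yX _ _ a b
    · exact h.2
  classical
  have inv : Function.Involutive fun i : ZMod r => if y.val i i = 0 then -i else i := fun i => by
    by_cases c : y.val i i = 0
    · simp [c, row i c]
    · simp [c]
  obtain ⟨v, hv⟩ := exists_dg_pm (g := y) inv.toPerm fun i j c => by
    simp only [Function.Involutive.coe_toPerm] at c
    by_cases a : y.val j j = 0
    · rw [if_pos a] at c
      by_cases b : j = i
      · rw [← b, a]
      exact z0 y yX _ _ b fun e => c (by rw [e, neg_neg])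
    · rw [if_neg a] at c
      by_cases b : j = -i
      · have hj : j ≠ 0 := by rintro rfl; exact c (by simpa using b.symm)
        rcases mon j hj with h | h
        · have : i = -j := by rw [b, neg_neg]
          rw [this, h.2]
        · exact absurd h.1 a
      exact z0 y yX _ _ (Ne.symm c) b
  refine ⟨v, inv.toPerm, fun i => ?_, hv⟩
  simp only [Function.Involutive.coe_toPerm]
  split_ifs <;> simp

end H26.C6A
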