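import Cfsg.Agent.H53.C6Od
import Cfsg.Agent.H26.C6A

/-! Tower C6P, job CT5: `t` is the only involution of its centraliser modulo scalars, `r = 5`. -/

set_option autoImplicit false
set_option linter.unusedSectionVars false

namespace H26.C6CT

open Matrix Cfsg.Geo H25 Equiv H53.C6

universe u

variable {F : Type u} [Field F]

theorem pm_one_of_sq {A : Matrix (Fin 2) (Fin 2) F} (h2 : (2 : F) ≠ 0) (h : A * A = 1)
    (hd : A.det = 1) : A = 1 ∨ A = -1 := by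
  have a1 := H26.C6A.diag_of_sq h2 h hd
  have a2 : A 1 0 = 0 := H26.C6A.diag_of_sq (A := Aᵀ) h2 (by rw [← transpose_mul, h, transpose_one])
    (by rw [det_transpose, hd])
  have e1 := congrFun (congrFun h 0) 0
  rw [det_fin_two, a1, zero_mul, sub_zero] at hd
  simp [mul_apply, Fin.sum_univ_two, a1, mul_self_eq_one_iff] at e1
  rcases e1 with e | e
  · left
    rw [e, one_mul] at hd
    ext i j; fin_cases i <;> fin_cases j <;> simp [*]
  · right
    have : A 1 1 = -1 := by rw [e] at hd; linear_combination -hd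
    ext i j; fin_cases i <;> fin_cases j <;> simp [*]

/-- the two determinants -/
noncomputable def DD (F : Type u) [Field F] : Subgroup.centralizer {tt F 5} →* Fˣ × Fˣ :=
  (GeneralLinearGroup.det.comp (Subgroup.subtype _)).prod (GeneralLinearGroup.det.comp (od half5))

theorem DD_eq {c : Subgroup.centralizer {tt F 5}} {x y : Fˣ} :
    DD F c = (x, y) ↔ c.1.val.det = x ∧ (odm 2 c.1.val).det = y := by
  simp [DD, Units.ext_iff, od_val]

theorem DD_sc (μ : Fˣ) (h : sc (ZMod 5) μ ∈ Subgroup.centralizer {tt F 5}) :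
    DD F ⟨_, h⟩ = (μ ^ 5, μ ^ 2) := by
  rw [DD_eq]
  refine ⟨?_, ?_⟩
  · simp [coe_sc]
  · simp [odm_sc half5]

theorem DD_hh (a : (ZMod 5)ˣ) (h : hh F a ∈ Subgroup.centralizer {tt F 5}) :
    ∃ ε : Fˣ, ε ^ 2 = 1 ∧ DD F ⟨_, h⟩ = (ε, 1) := by
  have h1 : (odm 2 (hh F a).val).det = 1 := by
    have : ∀ a : (ZMod 5)ˣ, (a : ZMod 5) = 1 ∨ (a : ZMod 5) = 2 ∨ (a : ZMod 5) = 3 ∨
      (a : ZMod 5) = 4 := by decide
    rcases this a with ha | ha | ha | ha <;>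
      simp +decide [det_fin_two, odm, hh, pm_apply, ha, ix]
  rcases Int.units_eq_one_or (Perm.sign (af a 0)) with e | e
  · exact ⟨1, by simp, DD_eq.2 ⟨by simp [hh, det_pm, e], h1⟩⟩
  · exact ⟨-1, by simp, DD_eq.2 ⟨by simp [hh, det_pm, e], h1⟩⟩

theorem DD_P {ω : Fˣ} (ho : orderOf ω = 5) (h : dp 5 ω 2 ∈ Subgroup.centralizer {tt F 5}) :
    DD F ⟨_, h⟩ = 1 := by
  refine DD_eq.2 ⟨?_, ?_⟩
  · have : ∏ i : ZMod 5, w ω (i ^ 2) = w ω ((0 : ZMod 5) ^ 2 + (1 ^ 2 + (2 ^ 2 + (3 ^ 2 + 4 ^ 2)))) := by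
      simp only [w_add ho]
      show ∏ i : Fin 5, _ = _
      simp only [Fin.prod_univ_succ, Fin.prod_univ_zero, mul_one]
      rfl
    rw [show ((0 : ZMod 5) ^ 2 + (1 ^ 2 + (2 ^ 2 + (3 ^ 2 + 4 ^ 2)))) = 0 by decide, w_zero] at this
    simp only [dp, det_dg]
    rw [← Units.coe_prod, this]
  · simp only [dp, odm_dg half5, det_diagonal, Fin.prod_univ_two, ← Units.val_mul, ← w_add ho]
    rw [show (ix 5 (0 : Fin 2) ^ 2 + ix 5 (1 : Fin 2) ^ 2) = 0 by decide, w_zero]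

theorem jobCT5 : JobCT5.{u} := by
  intro fr ks F _ _ r _ ω G hf hb h5 h2 yp g hg cg gg
  subst h5
  have ho := hf.ord
  let C := Subgroup.centralizer {tt F 5}
  have mC : ∀ {c}, Commute c (tt F 5) → c ∈ C := mem_cent_tt.2
  have sC : ∀ μ : Fˣ, sc (ZMod 5) μ ∈ C := fun μ => mC (sc_comm μ _)
  let L := G ⊓ (DD F).ker.map C.subtype
  have mL : ∀ {c}, c ∈ L ↔ c ∈ G ∧ ∃ h : c ∈ C, DD F ⟨c, h⟩ = 1 := fun {c} => by
    simp [L, Subgroup.mem_inf]
  obtain ⟨l, hl, μ, a, e⟩ := fr F 5 ω G hf hb yp L inf_le_left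
    (fun l hl => mem_cent_tt.1 (mL.1 hl).2.1)
    (fun c hc cc l hl => by
      obtain ⟨h1, h3, h4⟩ := mL.1 hl
      refine mL.2 ⟨G.mul_mem (G.mul_mem hc h1) (G.inv_mem hc),
        C.mul_mem (C.mul_mem (mC cc) h3) (C.inv_mem (mC cc)), ?_⟩
      change DD F (⟨c, mC cc⟩ * ⟨l, h3⟩ * ⟨c, mC cc⟩⁻¹) = 1
      rw [map_mul, map_mul, h4, map_inv, mul_one, mul_inv_cancel])
    (mL.2 ⟨hb.p, mC (comm_dp_tt 1), DD_P ho _⟩)
    (fun h => by
      obtain ⟨-, h3, h4⟩ := mL.1 h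
      rw [DD_sc, Prod.mk_eq_one] at h4
      have := orderOf_dvd_of_pow_eq_one h4.2
      rw [ho] at this
      omega) g hg cg
  obtain ⟨-, lC, dl⟩ := mL.1 hl
  obtain ⟨ε, ε2, dh⟩ := DD_hh a (mC (comm_hh_tt a))
  obtain ⟨c, hc⟩ : ∃ c : C, c = ⟨_, sC (ε * μ)⁻¹⟩ * ⟨g, mC cg⟩ := ⟨_, rfl⟩
  have c1 : c.1 = sc _ (ε * μ)⁻¹ * g := by rw [hc]; rfl
  have cG : c.1 ∈ G := c1 ▸ G.mul_mem (hb.sc _) hg
  have dc : DD F c = 1 := by
    have : (⟨g, mC cg⟩ : C) = ⟨l, lC⟩ * ⟨_, sC μ⟩ * ⟨_, mC (comm_hh_tt a)⟩ := Subtype.ext e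
    rw [hc, this, map_mul, map_mul, map_mul, dl, dh, DD_sc, DD_sc, one_mul, Prod.mk_mul_mk,
      Prod.mk_mul_mk, Prod.mk_eq_one]
    constructor
    · rw [inv_pow, inv_mul_eq_one, mul_pow, show 5 = 2 * 2 + 1 from rfl, pow_succ ε, pow_mul, ε2,
        one_pow, one_mul, mul_comm]
    · rw [inv_pow, inv_mul_eq_one, mul_pow, ε2, one_mul, mul_one]
  obtain ⟨ν, hν⟩ := mem_scalars_iff'.1 gg
  have cc : c * c = ⟨_, sC ((ε * μ)⁻¹ * (ε * μ)⁻¹ * ν)⟩ := Subtype.ext (by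
    change c.1 * c.1 = sc _ _
    rw [c1, map_mul, map_mul, ← hν, mul_assoc, ← mul_assoc g, ← sc_comm]
    simp only [mul_assoc])
  have c2 : c * c = 1 := by
    have := congrArg (DD F) cc
    rw [map_mul, dc, DD_sc, one_mul, eq_comm, Prod.mk_eq_one] at this
    have h6 : (ε * μ)⁻¹ * (ε * μ)⁻¹ * ν = 1 := by
      have h7 := this.1
      rwa [show 5 = 2 * 2 + 1 from rfl, pow_succ, pow_mul, this.2, one_pow, one_mul] at h7
    rw [cc]
    exact Subtype.ext (by simp only [h6, map_one]; rfl)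
  have gs : ∀ x, c.1 * x ∈ scalars (ZMod 5) F → g * x ∈ scalars (ZMod 5) F := fun x h => by
    rwa [c1, mul_assoc, Subgroup.mul_mem_cancel_left _ (sc_mem _)] at h
  have c3 : c.1 * c.1 = 1 := congrArg Subtype.val c2
  rcases pm_one_of_sq (A := (od half5 c).val) h2
    (by rw [← Units.val_mul, ← map_mul, c2, map_one, Units.val_one]) (DD_eq.1 dc).2 with o | o
  · rcases ks F 5 ω G hf hb h2 yp c cG (mem_cent_tt.1 c.2)
      ((od_eq_one_iff half5 c).1 (Units.ext o)) 1 (by rw [pow_one, sq, c3]) with k | k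
    · left; simpa using gs 1 (by rw [k, mul_one]; exact Subgroup.one_mem _)
    · right; exact gs _ (by rw [k, mul_assoc, tt_mul_tt, mul_one]; exact sc_mem _)
  · have ct := mem_cent_tt.1 c.2
    rcases ks F 5 ω G hf hb h2 yp (c.1 * tt F 5) (G.mul_mem cG hb.tt)
      (ct.mul_left (Commute.refl _))
      ((od_eq_one_iff half5 (c * ⟨_, mC (Commute.refl _)⟩)).1 (Units.ext (by
        rw [map_mul, Units.val_mul, o, od_val, odm_tt half5]; simp))) 1
      (by rw [pow_one, ct.mul_pow, sq, sq, c3, tt_mul_tt, one_mul]) with k | k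
    · right; exact gs _ (k ▸ Subgroup.one_mem _)
    · left; simpa using gs 1 (by rw [mul_right_cancel k, mul_one]; exact sc_mem _)

end H26.C6CT
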