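import Cfsg.Agent.H45.ItSpec
import Cfsg.Agent.H87.Simple

/-! Tower IT (row S4724), job EX: the exceptional characters of a cyclic TI subgroup of odd order. -/

set_option autoImplicit false
set_option linter.unusedSectionVars false

namespace H26.It

open Cfsg H28 H87 H2.PR H45.It Subgroup
open scoped ComplexConjugate

universe u

variable {G : Type*} [Group G] [Finite G] {x : G} {e : ℕ}

/-- `E = ⟨x⟩` is TI, of odd order, and of index two in its normaliser. -/
structure TI (x : G) (e : ℕ) : Prop where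
  simple : IsSimpleGroup G
  nab : ¬ IsMulCommutative G
  odd : Odd e
  two : 2 ≤ e
  ox : orderOf x = e
  nor : Nat.card (normalizer ((zpowers x : Subgroup G) : Set G)) = 2 * e
  ti : ∀ g : G, ∀ a ∈ zpowers x, a ≠ 1 → g * a * g⁻¹ ∈ zpowers x →
    g ∈ normalizer ((zpowers x : Subgroup G) : Set G)

theorem comm_E {a b : G} (ha : a ∈ zpowers x) (hb : b ∈ zpowers x) : a * b * a⁻¹ = b := by
  obtain ⟨i, rfl⟩ := ha
  obtain ⟨j, rfl⟩ := hb
  exact mul_inv_eq_iff_eq_mul.2 (zpow_mul_comm x i j)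

namespace TI

variable (T : TI x e) {g g' a : G}
include T

theorem card : Nat.card (zpowers x) = e := by rw [Nat.card_zpowers, T.ox]

theorem idx : ((zpowers x).subgroupOf (normalizer ((zpowers x : Subgroup G) : Set G))).index = 2 := by
  have h := ((zpowers x).subgroupOf (normalizer ((zpowers x : Subgroup G) : Set G))).card_mul_index
  rw [T.nor, Nat.card_congr (subgroupOfEquivOfLe le_normalizer).toEquiv, T.card, mul_comm] at h
  exact Nat.eq_of_mul_eq_mul_right (by have := T.two; omega) h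

theorem mul_iff (hg : g ∈ normalizer ((zpowers x : Subgroup G) : Set G))
    (hg' : g' ∈ normalizer ((zpowers x : Subgroup G) : Set G)) :
    g * g' ∈ zpowers x ↔ (g ∈ zpowers x ↔ g' ∈ zpowers x) :=
  mul_mem_iff_of_index_two T.idx (a := ⟨g, hg⟩) (b := ⟨g', hg'⟩)

theorem ex : ∃ τ ∈ normalizer ((zpowers x : Subgroup G) : Set G), τ ∉ zpowers x := by
  by_contra h
  have := T.idx
  rw [subgroupOf_eq_top.2 fun g hg => by_contra fun c => h ⟨g, hg, c⟩, index_top] at this
  omega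

theorem mem_of_odd (hg : g ∈ normalizer ((zpowers x : Subgroup G) : Set G)) {n : ℕ} (hn : Odd n)
    (h : g ^ n = 1) : g ∈ zpowers x := by
  obtain ⟨k, rfl⟩ := hn
  have := pow_mem ((T.mul_iff hg hg).2 Iff.rfl) (k + 1)
  rwa [← pow_two, ← pow_mul, mul_add, mul_one, show 2 * k + 2 = 2 * k + 1 + 1 from rfl, pow_succ, h,
    one_mul] at this

/-- The elements of `N(E)` outside `E` invert `E`. -/
theorem inv (hg : g ∈ normalizer ((zpowers x : Subgroup G) : Set G)) (ng : g ∉ zpowers x)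
    (ha : a ∈ zpowers x) : g * a * g⁻¹ = a⁻¹ := by
  have := T.simple
  obtain ⟨m, hm⟩ := (mem_normalizer_iff.1 hg x).1 (mem_zpowers x)
  have act : ∀ b ∈ zpowers x, g * b * g⁻¹ = b ^ m := by
    rintro _ ⟨i, rfl⟩
    rw [← conj_zpow, ← hm, ← zpow_mul, ← zpow_mul, mul_comm]
  have sq : ∀ b ∈ zpowers x, (orderOf b : ℤ) ∣ (m - 1) * (m + 1) := fun b hb => by
    have h := comm_E ((T.mul_iff hg hg).2 Iff.rfl) hb
    rw [show g * g * b * (g * g)⁻¹ = g * (g * b * g⁻¹) * g⁻¹ by group, act b hb,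
      act _ (zpow_mem hb m), ← zpow_mul] at h
    rw [orderOf_dvd_iff_zpow_eq_one, show (m - 1) * (m + 1) = m * m - 1 by ring, zpow_sub, h, zpow_one,
      mul_inv_cancel]
  have cop : IsCoprime (e : ℤ) (m - 1) := by
    rw [Int.isCoprime_iff_gcd_eq_one, Int.gcd_eq_natAbs, Int.natAbs_natCast]
    refine Nat.coprime_of_dvd fun l hl h1 h2 => ?_
    have : Fact l.Prime := ⟨hl⟩
    have lo : Odd l := T.odd.of_dvd_nat h1
    have h3 : (l : ℤ) ∣ m - 1 := Int.natCast_dvd.2 h2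
    have h4 : IsCoprime (l : ℤ) (m + 1) := by
      rw [Int.isCoprime_iff_gcd_eq_one, Int.gcd_eq_natAbs, Int.natAbs_natCast]
      refine hl.coprime_iff_not_dvd.2 fun h5 => ?_
      have h6 := dvd_sub (Int.natCast_dvd.2 h5) h3
      rw [show m + 1 - (m - 1) = ((2 : ℕ) : ℤ) by push_cast; ring, Int.natCast_dvd_natCast,
        Nat.prime_dvd_prime_iff_eq hl Nat.prime_two] at h6
      rw [h6] at lo
      exact absurd lo (by decide)
    obtain ⟨⟨x1, m1⟩, o1⟩ := exists_prime_orderOf_dvd_card' (G := zpowers x) l (T.card ▸ h1)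
    rw [orderOf_mk] at o1
    have n1 : x1 ≠ 1 := fun c => hl.one_lt.ne' (by rw [← o1, c, orderOf_one])
    obtain ⟨Q, hQ⟩ := (IsPGroup.of_card (p := l) (G := zpowers x1) (n := 1)
      (by rw [Nat.card_zpowers, o1, pow_one])).exists_le_sylow
    have xQ : x1 ∈ (Q : Subgroup G) := hQ (mem_zpowers x1)
    have pw : ∀ q ∈ (Q : Subgroup G), ∃ k, q ^ l ^ k = 1 := fun q hq =>
      (Q.isPGroup' ⟨q, hq⟩).imp fun k hk => congrArg Subtype.val hk
    have inE : ∀ q ∈ (Q : Subgroup G), ∀ b ∈ zpowers x, b ≠ 1 → q * b = b * q → q ∈ zpowers x :=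
      fun q hq b hb b1 c =>
        let ⟨k, hk⟩ := pw q hq
        T.mem_of_odd (T.ti q b hb b1 (by rwa [c, mul_inv_cancel_right])) (lo.pow (n := k)) hk
    have : Nontrivial (Q : Subgroup G) := ⟨⟨x1, xQ⟩, 1, fun c => n1 (congrArg Subtype.val c)⟩
    have := Q.isPGroup'.center_nontrivial
    obtain ⟨⟨⟨z, zQ⟩, hz⟩, z1⟩ := exists_ne (1 : center (Q : Subgroup G))
    have zc : ∀ q ∈ (Q : Subgroup G), q * z = z * q := fun q hq =>
      congrArg Subtype.val (mem_center_iff.1 hz ⟨q, hq⟩)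
    have QE : ∀ q ∈ (Q : Subgroup G), q ∈ zpowers x := fun q hq =>
      inE q hq z (inE z zQ x1 m1 n1 (zc x1 xQ).symm)
        (fun c => z1 (Subtype.ext (Subtype.ext c))) (zc q hq)
    refine not_normalizer_le_centralizer T.nab (p := l) (o1 ▸ orderOf_dvd_natCard x1) Q
      fun n hn q hq => ?_
    have nN := T.ti n x1 m1 n1 (QE _ ((mem_normalizer_iff.1 hn x1).1 xQ))
    refine (mul_inv_eq_iff_eq_mul.1 ?_).symm
    by_cases nE : n ∈ zpowers x
    · exact comm_E nE (QE q hq)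
    have b := (T.mul_iff nN (inv_mem hg)).2 (iff_of_false nE (mt inv_mem_iff.1 ng))
    obtain ⟨k, hk⟩ := pw q hq
    obtain ⟨j, -, hj⟩ := (Nat.dvd_prime_pow hl).1 (orderOf_dvd_of_pow_eq_one hk)
    have d := sq q (QE q hq)
    have d' : (orderOf q : ℤ) ∣ m - 1 := by
      rw [hj, Nat.cast_pow] at d ⊢
      exact h4.pow_left.dvd_of_dvd_mul_right d
    rw [orderOf_dvd_iff_zpow_eq_one, zpow_sub, zpow_one, mul_inv_eq_one] at d'
    rw [show n * q * n⁻¹ = n * g⁻¹ * (g * q * g⁻¹) * (n * g⁻¹)⁻¹ by group, act q (QE q hq), d',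
      comm_E b (QE q hq)]
  have d := sq x (mem_zpowers x)
  rw [T.ox] at d
  have d' := cop.dvd_of_dvd_mul_left d
  have o : (orderOf a : ℤ) ∣ m + 1 :=
    (Int.natCast_dvd_natCast.2 (T.card ▸ Subgroup.orderOf_dvd_natCard _ ha)).trans d'
  rw [orderOf_dvd_iff_zpow_eq_one, zpow_add_one] at o
  rw [act a ha, eq_inv_of_mul_eq_one_left o]

/-- The induced function on `E`. -/
theorem ind_apply [Fintype G] {θ : zpowers x → ℂ} (h1 : θ 1 = 0) (a : zpowers x) :
    indFun (zpowers x) θ a = θ a + θ a⁻¹ := by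
  classical
  by_cases a1 : a = 1
  · rw [a1, inv_one, OneMemClass.coe_one, H33.indFun_apply_one, h1, mul_zero, add_zero]
  obtain ⟨τ, hτ, nτ⟩ := T.ex
  have pt : ∀ g : G, extendByZero (zpowers x) θ (g * a * g⁻¹) =
      (if g ∈ zpowers x then θ a else 0) + if g * τ ∈ zpowers x then θ a⁻¹ else 0 := fun g => by
    by_cases hg : g ∈ normalizer ((zpowers x : Subgroup G) : Set G)
    · by_cases gE : g ∈ zpowers x
      · rw [comm_E gE a.2, if_pos gE, if_neg (mt (mul_mem_cancel_left gE).1 nτ), add_zero,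
          H33.ext0_of_mem _ _ a.2]
      · rw [T.inv hg gE a.2, if_neg gE, if_pos ((T.mul_iff hg hτ).2 (iff_of_false gE nτ)), zero_add,
          H33.ext0_of_mem _ _ (inv_mem a.2)]
        rfl
    · rw [H33.ext0_of_not_mem _ _ fun c => hg (T.ti g a a.2 (fun c => a1 (Subtype.ext c)) c),
        if_neg fun c => hg (le_normalizer c),
        if_neg fun c => hg ((mul_mem_cancel_right hτ).1 (le_normalizer c)), add_zero]
  have sm : ∀ c : ℂ, ∑ g : G, (if g ∈ zpowers x then c else 0) = Nat.card (zpowers x) * c := fun c => by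
    rw [← Finset.sum_filter, Finset.sum_const, nsmul_eq_mul, Nat.card_eq_fintype_card,
      Fintype.card_subtype]
  have sm2 : ∑ g : G, (if g * τ ∈ zpowers x then θ a⁻¹ else 0) =
      ∑ g : G, if g ∈ zpowers x then θ a⁻¹ else 0 :=
    Equiv.sum_comp (Equiv.mulRight τ) fun g => if g ∈ zpowers x then θ a⁻¹ else 0
  rw [H33.indFun_apply', Finset.sum_congr rfl fun g _ => pt g, Finset.sum_add_distrib,
    sm2, sm, sm, ← mul_add,
    inv_mul_cancel_left₀ (H33.natCard_ne_zero _)]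

theorem ind_real [Fintype G] {θ : zpowers x → ℂ} (hθ : IsGeneralizedCharacter (zpowers x) θ) (g : G) :
    indFun (zpowers x) θ g⁻¹ = indFun (zpowers x) θ g := by
  obtain ⟨τ, hτ, nτ⟩ := T.ex
  rw [hθ.indFun.apply_inv, ← H33.indFun_conj, H33.indFun_conj_subgroup τ (zpowers x) (zpowers x)
    (fun g => (mem_normalizer_iff.1 hτ g).symm) θ (fun h => conj (θ h)) fun h h' c => by
      rw [← hθ.apply_inv, show h' = h⁻¹ from Subtype.ext (c.symm.trans (T.inv hτ nτ h.2)), inv_inv]]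

theorem exists_hom (u : ℂˣ) (hu : u ^ e = 1) :
    ∃ l : zpowers x →* ℂˣ, l ⟨x, mem_zpowers x⟩ = u :=
  ⟨monoidHomOfForallMemZpowers (g := (⟨x, mem_zpowers x⟩ : zpowers x)) (g' := u)
    (by rintro ⟨_, k, rfl⟩; exact ⟨k, rfl⟩)
    (by rw [orderOf_mk, T.ox]; exact orderOf_dvd_of_pow_eq_one hu),
    monoidHomOfForallMemZpowers_apply_gen _ _⟩

end TI

theorem inner_congr {H : Type*} [Group H] [Fintype H] {θ η η' : H → ℂ} (h1 : θ 1 = 0)
    (h : ∀ a, a ≠ 1 → η a = η' a) : classInner θ η = classInner θ η' := by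
  rw [classInner_def, classInner_def]
  refine congrArg _ (Finset.sum_congr rfl fun a _ => ?_)
  by_cases a1 : a = 1
  · rw [a1, h1, zero_mul, zero_mul]
  · rw [h a a1]

theorem one_of_sq {M : Type*} [Monoid M] {u : M} (he : Odd e) (h1 : u ^ e = 1) (h2 : u ^ 2 = 1) :
    u = 1 := by
  obtain ⟨k, rfl⟩ := he
  rwa [pow_succ, pow_mul, h2, one_pow, one_mul] at h1

variable {p h : ℕ} [Fact p.Prime] {P : Sylow p G} {y : G} {ψ : IrrCharacter G}

theorem ti_of (S : Su p e h P x y ψ) (he : Odd e) : TI x e :=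
  ⟨S.simple, fun c => S.ins (Group.isSolvable_of_comm c.is_comm.comm), he, S.lo.two, S.ox, S.nor, S.ti⟩

theorem psi_one (S : Su p e h P x y ψ) (he : Odd e) {a : G} (ha : a ∈ zpowers x) (a1 : a ≠ 1) :
    (ψ : G → ℂ) a = 1 := by
  have T := ti_of S he
  obtain ⟨ω, h1, h2⟩ := S.val
  obtain ⟨τ, hτ, nτ⟩ := T.ex
  obtain ⟨n, rfl⟩ : ∃ n, e = n + 2 := ⟨e - 2, by have := T.two; omega⟩
  have e1 := h2 1 fun c => by have := Nat.le_of_dvd one_pos c; omega
  have e2 := h2 (n + 1) fun c => by have := Nat.le_of_dvd n.succ_pos c; omega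
  have e3 : x ^ (n + 1) = τ * x * τ⁻¹ := by
    rw [T.inv hτ nτ (mem_zpowers x), eq_inv_iff_mul_eq_one, ← pow_succ, ← T.ox, pow_orderOf_eq_one]
  rw [e3, ψ.2.isCharacter.isClassFunction.apply_conj] at e2
  rw [pow_one, e2] at e1
  have ω1 : ω = 1 := one_of_sq he h1 (by rw [← h1, pow_succ _ (n + 1), e1, ← pow_succ])
  obtain ⟨i, rfl⟩ := mem_powers_iff_mem_zpowers.2 ha
  rw [h2 i fun c => a1 (orderOf_dvd_iff_pow_eq_one.1 (T.ox ▸ c)), ω1, one_pow]

theorem exists_chi (S : Su p e h P x y ψ) (he : Odd e) (u : ℂˣ) (hu : u ^ e = 1) (u1 : u ≠ 1) :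
    ∃ χ : IrrCharacter G, (dg χ = p + 1 ∧ (∀ z ∈ (P : Subgroup G), z ≠ 1 → (χ : G → ℂ) z = 1) ∧
      ∀ g, (χ : G → ℂ) g⁻¹ = (χ : G → ℂ) g) ∧ (χ : G → ℂ) x = u + (u⁻¹ : ℂˣ) := by
  classical
  have hp : p.Prime := Fact.out
  have T := ti_of S he
  have := Fintype.ofFinite G
  obtain ⟨l, hl⟩ := T.exists_hom u hu
  have i0 : IsIrrCharacter (zpowers x) (fun _ => 1) := isIrrCharacter_one
  have i1 := isIrrCharacter_of_hom l
  have i2 := isIrrCharacter_of_hom l⁻¹
  have n1 : (fun a => (l a : ℂ)) ≠ fun _ => 1 := fun c =>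
    u1 (Units.ext (by rw [← hl]; exact congrFun c _))
  have n2 : (fun a => (l⁻¹ a : ℂ)) ≠ fun _ => 1 := fun c =>
    u1 (inv_eq_one.1 (Units.ext (by rw [← hl]; exact congrFun c _)))
  have n3 : (fun a => (l a : ℂ)) ≠ fun a => (l⁻¹ a : ℂ) := fun c => u1 (one_of_sq he hu (by
    rw [pow_two, ← eq_inv_iff_mul_eq_one]
    exact Units.ext (by rw [← hl]; exact congrFun c _)))
  set θ : zpowers x → ℂ := (fun _ => 1) - fun a => (l a : ℂ) with hθ
  have gθ : IsGeneralizedCharacter (zpowers x) θ :=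
    i0.isGeneralizedCharacter.sub i1.isGeneralizedCharacter
  have θ1 : θ 1 = 0 := by simp [hθ]
  have gD := gθ.indFun
  set D := indFun (zpowers x) θ with hD
  have DE : (fun a : zpowers x => D a) = θ + ((fun _ => 1) - fun a => (l⁻¹ a : ℂ)) := funext fun a => by
    rw [hD, T.ind_apply θ1]; simp [hθ]
  have t1 : classInner θ (fun _ => 1) = 1 := by
    rw [hθ, classInner_sub_left, i0.classInner_self, i1.classInner_of_ne i0 n1, sub_zero]
  have j0 : IsIrrCharacter G (fun _ => 1) := isIrrCharacter_one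
  have d1 : classInner D (fun _ => 1) = 1 := by
    rw [hD, H33.classInner_indFun_left _ _ (isClassFunction_const 1), t1]
  have d2 : classInner D ψ = 1 := by
    rw [hD, H33.classInner_indFun_left _ _ ψ.2.isCharacter.isClassFunction, ← t1]
    exact inner_congr θ1 fun a a1 => psi_one S he a.2 fun c => a1 (Subtype.ext c)
  have d3 : classInner D D = 3 := by
    rw [hD, H33.classInner_indFun_left _ _ gD.isClassFunction, DE, hθ]
    simp only [classInner_add_right, classInner_sub_right, classInner_sub_left]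
    rw [i0.classInner_self, i1.classInner_self, i1.classInner_of_ne i0 n1,
      i0.classInner_of_ne i1 n1.symm, i0.classInner_of_ne i2 n2.symm, i1.classInner_of_ne i2 n3]
    norm_num
  have ψ1 : (ψ : G → ℂ) 1 = p := by rw [← coe_dg, S.deg]
  have n4 : (ψ : G → ℂ) ≠ fun _ => 1 := fun c => hp.one_lt.ne' (by
    have : (p : ℂ) = 1 := ψ1.symm.trans (congrFun c 1)
    exact_mod_cast this)
  have D1 : D 1 = 0 := by rw [hD, H33.indFun_apply_one, θ1, mul_zero]
  have gχ := (j0.isGeneralizedCharacter.add ψ.2.isGeneralizedCharacter).sub gD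
  have χ1 : ((fun _ => 1) + (ψ : G → ℂ) - D : G → ℂ) 1 = (p + 1 : ℕ) := by
    simp only [Pi.sub_apply, Pi.add_apply, D1, ψ1]; push_cast; ring
  have ir := gχ.irr_of_norm_one (by
    simp only [classInner_add_right, classInner_sub_right, classInner_sub_left, classInner_add_left]
    rw [j0.classInner_self, ψ.2.classInner_self, ψ.2.classInner_of_ne j0 n4,
      j0.classInner_of_ne ψ.2 n4.symm, j0.isGeneralizedCharacter.classInner_comm gD,
      ψ.2.isGeneralizedCharacter.classInner_comm gD, d1, d2, d3]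
    norm_num) (by rw [χ1]; exact_mod_cast Nat.zero_le _)
  refine ⟨⟨_, ir⟩, ⟨ir.isCharacter.charDegree_eq_iff.2 χ1, fun z hz z1 => ?_, fun g => ?_⟩, ?_⟩
  · have : D z = 0 := H33.indFun_eq_zero_of _ _ _ fun a c => (S.lo.not_dvd_orderOf_x (by
      obtain ⟨c, hc⟩ := isConj_iff.1 c
      rw [← orderOf_eq_of_mem hp S.lo.card hz z1, ← (MulAut.conj c).orderOf_eq z, MulAut.conj_apply, hc]
      exact orderOf_dvd_of_mem_zpowers a.2)).elim
    simp only [Pi.sub_apply, Pi.add_apply, this, S.sing z hz z1, add_zero, sub_zero]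
  · have c := congrFun (congrArg Subtype.val (S.uni ⟨_, ψ.2.conj⟩
      (ψ.2.isCharacter.charDegree_conj.trans S.deg))) g
    simp only [Pi.sub_apply, Pi.add_apply]
    rw [hD, T.ind_real gθ, ψ.2.isCharacter.apply_inv]
    exact congrArg (fun t => 1 + t - _) c
  · have c := congrFun DE ⟨x, mem_zpowers x⟩
    have x1 : x ≠ 1 := fun c => by have := T.ox; have := T.two; rw [c, orderOf_one] at *; omega
    simp only [Pi.sub_apply, Pi.add_apply, hθ, MonoidHom.inv_apply, hl] at c ⊢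
    rw [c, psi_one S he (mem_zpowers x) x1]
    ring

theorem jobEx : JobEx.{u} := by
  intro G _ _ p e h _ P x y ψ S he
  classical
  have e0 : e ≠ 0 := S.lo.e_pos.ne'
  obtain ⟨ζ, hζ⟩ : ∃ ζ : ℂ, IsPrimitiveRoot ζ e := ⟨_, Complex.isPrimitiveRoot_exp e e0⟩
  have z0 := hζ.ne_zero e0
  obtain ⟨n, rfl⟩ := he
  have : ∀ k : Fin n, ∃ χ : IrrCharacter G, (dg χ = p + 1 ∧
      (∀ z ∈ (P : Subgroup G), z ≠ 1 → (χ : G → ℂ) z = 1) ∧ ∀ g, (χ : G → ℂ) g⁻¹ = (χ : G → ℂ) g) ∧
      (χ : G → ℂ) x = ζ ^ (k.1 + 1) + (ζ ^ (k.1 + 1))⁻¹ := fun k =>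
    exists_chi S ⟨n, rfl⟩ (Units.mk0 _ (pow_ne_zero (k.1 + 1) z0))
      (Units.ext (by
        rw [Units.val_pow_eq_pow_val, Units.val_mk0, ← pow_mul, mul_comm, pow_mul, hζ.pow_eq_one,
          one_pow, Units.val_one]))
      fun c => by
        have := Nat.le_of_dvd k.1.succ_pos ((hζ.pow_eq_one_iff_dvd _).1 (congrArg Units.val c))
        have := k.2
        omega
  choose f h1 h2 using this
  refine ⟨Finset.univ.image f, ?_, fun χ hχ => ?_⟩
  · rw [Finset.card_image_of_injective _ fun k j c => ?_, Finset.card_univ, Fintype.card_fin]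
    have e1 := h2 k
    rw [c, h2 j] at e1
    have a0 := pow_ne_zero (k.1 + 1) z0
    have b0 := pow_ne_zero (j.1 + 1) z0
    have := k.2
    have := j.2
    have e2 : (ζ ^ (k.1 + 1) - ζ ^ (j.1 + 1)) * (ζ ^ (k.1 + 1) * ζ ^ (j.1 + 1) - 1) = 0 := by
      field_simp at e1
      linear_combination -e1
    rcases mul_eq_zero.1 e2 with c | c
    · have := hζ.pow_inj (by omega) (by omega) (sub_eq_zero.1 c)
      exact Fin.ext (by omega)
    · rw [sub_eq_zero, ← pow_add, hζ.pow_eq_one_iff_dvd] at c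
      have := Nat.le_of_dvd (by omega) c
      omega
  · obtain ⟨k, -, rfl⟩ := Finset.mem_image.1 hχ
    exact h1 k

end H26.It
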