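/- Tensor-induced subgroups with orthogonal factors of dimension four: the job CB. -/
import Cfsg.Agent.H59.O3CBa
import Cfsg.Agent.H60.WrO4Kit

set_option autoImplicit false

namespace H26.O4
open Cfsg Cfsg.Geo Matrix H19 Module H60.Wr
open H59.O3 (not_dvd_index_of exists_avg cpt_comm mem_erase ct_inC_of CG)
open scoped MatrixGroups commutatorElement

universe u

variable {F : Type u} [Field F] {t : ℕ} {B : Frm (Fin 4) F} {w w' v v' : Fin 4 → F}

theorem hh_w (R : Fr4 B w w' v v') (l : F) : hh B w w' l *ᵥ w = l • w := by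
  simp only [hh, add_mulVec, smul_mulVec, rf_mulVec, one_mulVec, R.ww, R.hw.2]; module

theorem eu_w (H : O4 B) (hw : B.f w w = 0) (hv : B.f v w = 0) : eu B w v *ᵥ w = w := by
  have h1 : B.f w v = 0 := by rw [H.sy, hv]
  simp [eu, add_mulVec, sub_mulVec, smul_mulVec, rf_mulVec, hw, h1]

theorem comm_rho (H : O4 B) (R : Fr4 B w w' v v') {Y : Mk 4 F} (hu : Y * eu B w v = eu B w v * Y) :
    Commute (rf B w w) Y ∧ Commute (rf B w v - rf B v w) Y := by
  have c1 : Commute (eu B w v - 1) Y := (Commute.symm hu).sub_left (Commute.one_left _)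
  have c2 : Commute (rf B w w) Y := by
    have := c1.pow_left 2
    rwa [H.eu_sq R.hw.2 R.vw, Commute.smul_left_iff₀ (neg_ne_zero.2 R.vv)] at this
  refine ⟨c2, ?_⟩
  have := c1.add_left (c2.smul_left (B.f v v / 2))
  rwa [eu, show ∀ a b : Mk 4 F, 1 + a - b - 1 + b = a from fun a b => by abel] at this

theorem cent_v (H : O4 B) (R : Fr4 B w w' v v') {Y : Mk 4 F} {l : F} (l1 : l ≠ 1)
    (hu : Y * eu B w v = eu B w v * Y) (hu' : Y * eu B w v' = eu B w v' * Y)
    (hh' : Y * hh B w w' l = hh B w w' l * Y) :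
    Y *ᵥ v = B.f (Y *ᵥ w) w' • v ∧ B.f (Y *ᵥ w') v = 0 := by
  have e2 := congrArg (· *ᵥ v) (comm_rho H R hu).2.eq
  have e5 := congrArg (· *ᵥ v) (comm_rho H (R.swap H) hu').2.eq
  have e3 := congrArg (· *ᵥ v) hh'
  have e4 := congrArg (· *ᵥ w') hh'
  simp only [← mulVec_mulVec, hh, add_mulVec, sub_mulVec, smul_mulVec, rf_mulVec, one_mulVec,
    R.w'w H, R.vw, R.vw', R.vu, R.hw'.2, one_smul, zero_smul, smul_zero, add_zero, sub_zero,
    mulVec_add, mulVec_smul, mulVec_zero] at e2 e3 e4 e5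
  have l2 : l - 1 ≠ 0 := sub_ne_zero.2 l1
  have l3 : l⁻¹ - 1 ≠ 0 := sub_ne_zero.2 (by simpa using l1)
  have f2 := congrArg (B.f · w') e2
  have f3 := congrArg (B.f · w') e3
  have f4 := congrArg (B.f · w) e3
  have f5 := congrArg (B.f · v) e4
  have f7 := congrArg (B.f · w') e5
  simp only [B.add_left, B.sub_left, B.smul_left, B.zero_left, R.ww, R.w'w H, R.vw', R.uw', R.wv,
    R.w'v, R.hw.2, R.hw'.2, mul_one, mul_zero, add_zero, sub_zero, left_eq_add, add_eq_left,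
    mul_eq_zero, l2, l3, false_or] at f2 f3 f4 f5 f7
  refine ⟨?_, f5⟩
  rw [R.vec (Y *ᵥ v), f2, f3, f4, f7]
  simp only [zero_smul, add_zero, zero_add, mul_zero, inv_mul_cancel_left₀ R.vv]

/-- The centraliser of the Borel subgroup in one factor. -/
theorem cent (H : O4 B) (R : Fr4 B w w' v v') {Y : Mk 4 F} {l : F} (l0 : l ≠ 0) (l1 : l ≠ 1)
    (hu : Y * eu B w v = eu B w v * Y) (hu' : Y * eu B w v' = eu B w v' * Y)
    (hh' : Y * hh B w w' l = hh B w w' l * Y) :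
    Y = B.f (Y *ᵥ w) w' • 1 + B.f (Y *ᵥ w') w' • rf B w w ∧ (l ^ 2 ≠ 1 → B.f (Y *ᵥ w') w' = 0) := by
  obtain ⟨a1, a2⟩ := cent_v H R l1 hu hu' hh'
  obtain ⟨a3, a4⟩ := cent_v H (R.swap H) l1 hu' hu hh'
  have e1 := congrArg (· *ᵥ w') (comm_rho H R hu).1.eq
  have e4 := congrArg (· *ᵥ w') hh'
  simp only [← mulVec_mulVec, hh, add_mulVec, smul_mulVec, rf_mulVec, one_mulVec,
    R.w'w H, R.hw'.2, one_smul, zero_smul, smul_zero, add_zero, mulVec_add, mulVec_smul] at e1 e4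
  have f1 := congrArg (B.f · w') e1
  have f6 := congrArg (B.f · w') e4
  simp only [B.add_left, B.smul_left, R.ww, R.hw'.2, mul_one, mul_zero, add_zero] at f1 f6
  refine ⟨R.mat ?_ ?_ ?_ ?_, fun h => ?_⟩
  · simp only [add_mulVec, smul_mulVec, rf_mulVec, one_mulVec, R.hw.2, zero_smul, smul_zero,
      add_zero, ← f1, e1]
  · conv_lhs => rw [R.vec (Y *ᵥ w'), a2, a4, f1]
    simp only [add_mulVec, smul_mulVec, rf_mulVec, one_mulVec, R.w'w H, mul_zero, zero_smul,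
      one_smul, add_zero, add_comm]
  · simp only [add_mulVec, smul_mulVec, rf_mulVec, one_mulVec, R.vw, zero_smul, smul_zero,
      add_zero, ← a1]
  · simp only [add_mulVec, smul_mulVec, rf_mulVec, one_mulVec, R.uw, zero_smul, smul_zero,
      add_zero, ← a3]
  · have : (l ^ 2 - 1) * B.f (Y *ᵥ w') w' = 0 := by
      field_simp at f6
      linear_combination -f6
    exact (mul_eq_zero.1 this).resolve_left (sub_ne_zero.2 h)

theorem emG_mem_MI {M : Subgroup (GG 4 t F)} (H : O4M B M) {I : Finset (Fin t)} {m : Fin t}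
    (hm : m ∈ I) {s : GL (Fin 4) F} (hs : s ∈ G0 B) : emG m s ∈ MI M I :=
  ⟨mem_Gam.1 (H.gam hs) m, fun j hj => InC.emG (by rintro rfl; exact hj hm) s⟩

/-- `X` commutes with the stabiliser of the point `w` in the `l`-th factor. -/
def Com (B : Frm (Fin 4) F) (w : Fin 4 → F) (l : Fin t) (X : EE 4 t F) : Prop :=
  ∀ s ∈ G0 B, (∃ c : F, (s : Mk 4 F) *ᵥ w = c • w) → em l (s : Mk 4 F) * X = X * em l (s : Mk 4 F)

variable {i l : Fin t} {X : EE 4 t F}

theorem Com.of_inC (h : InC l X) : Com B w l X := fun _ _ _ => h _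

theorem Com.ct (h : Com B w l X) (hl : i ≠ l) (φ x : Fin 4 → F) : Com B w l (ct i φ x X) :=
  fun s hs e => by
    rw [← ct_inC_left (InC.em hl _), ← ct_inC_right (InC.em hl _), h s hs e]

theorem Com.hh (h : Com B w l X) (H : O4F B) (R : Fr4 B w w' v v') {a : F} (ha : a ≠ 0) :
    em l (hh B w w' a) * X = X * em l (hh B w w' a) := by
  rcases H.torpm w R.hw w' R.hw' R.ww a ha with ⟨s, hs, e⟩ | ⟨s, hs, e⟩
  · rw [← e]; exact h s hs ⟨_, by rw [e, hh_w R]⟩
  · have := h s hs ⟨-a, by rw [e, neg_mulVec, hh_w R, neg_smul]⟩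
    rwa [e, map_neg, neg_mul, mul_neg, neg_inj] at this

theorem Com.eu (h : Com B w l X) (H : O4F B) (R : Fr4 B w w' v v') :
    em l (eu B w v) * X = X * em l (eu B w v) := by
  obtain ⟨s, hs, e⟩ := H.eich w R.hw v R.vw
  rw [← e]; exact h s hs ⟨1, by rw [e, eu_w H.toO4 R.hw.2 R.vw, one_smul]⟩

/-- The statement (C5) of the blueprint. -/
theorem Com.eq (h : Com B w l X) (H : O4F B) (R : Fr4 B w w' v v') :
    X = H60.Wr.ct l (ph B w') w X + em l (rf B w w) * H60.Wr.ct l (ph B w') w' X := by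
  have a1 : (-1 : F) ≠ 1 := fun e => H.two (by linear_combination -e)
  have a0 : (-1 : F) ≠ 0 := by simp
  rw [← sub_eq_zero]
  refine eq_zero_of_ct (i := l) fun φ x => (Module.forall_dual_apply_eq_zero_iff F _).1 fun m => ?_
  have h1 := (cent H.toO4 R a0 a1 (cpt_comm m (h.eu H R)) (cpt_comm m (h.eu H (R.swap H.toO4)))
    (cpt_comm m (h.hh H R a0))).1
  rw [ct_sub, ct_add, ct_of_inC (ct_inC _ _ _ _), ct_em_mul (ct_inC _ _ _ _), map_sub, map_add,
    map_smul, map_smul, ← cpt_spec, ← cpt_spec, ← cpt_spec, ph_dot, ph_dot]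
  conv_lhs => enter [1]; rw [h1]
  simp only [add_mulVec, smul_mulVec, one_mulVec, dotProduct_add, dotProduct_smul, smul_eq_mul]
  ring

theorem Com.inC (h : Com B w l X) (H : O4F B) (R : Fr4 B w w' v v') {a : F} (a0 : a ≠ 0)
    (a2 : a ^ 2 ≠ 1) : InC l X := by
  have : H60.Wr.ct l (ph B w') w' X = 0 := (Module.forall_dual_apply_eq_zero_iff F _).1 fun m => by
    rw [← cpt_spec, ph_dot]
    exact (cent H.toO4 R a0 (fun e => a2 (by rw [e, one_pow])) (cpt_comm m (h.eu H R))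
      (cpt_comm m (h.eu H (R.swap H.toO4))) (cpt_comm m (h.hh H R a0))).2 a2
  rw [h.eq H R, this, mul_zero, add_zero]
  exact ct_inC _ _ _ _

/-- The statement (Sym) of the blueprint. -/
theorem adj_eq_of_com (H : O4F B) (R : Fr4 B w w' v v') (h : ∀ l, Com B w l X) :
    (B.pow t).adj X = X := by
  suffices key : ∀ (S : Finset (Fin t)) (X : EE 4 t F), (∀ l, Com B w l X) → (∀ l ∉ S, InC l X) →
      (B.pow t).adj X = X from key Finset.univ X h (by simp)
  intro S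
  induction S using Finset.induction_on with
  | empty =>
    intro X _ h2
    obtain ⟨c, rfl⟩ := sc_of_inC fun l => h2 l (by simp)
    rw [Frm.adj_smul, Frm.adj_one, pow_sig, H.sig]
  | insert l S hl ih =>
    intro X h1 h2
    have h3 : ∀ x, (B.pow t).adj (ct l (ph B w') x X) = ct l (ph B w') x X := fun x => by
      refine ih _ (fun j => ?_) fun j hj => ?_ <;> by_cases e : j = l
      · subst e; exact Com.of_inC (ct_inC _ _ _ _)
      · exact (h1 j).ct (Ne.symm e) _ _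
      · subst e; exact ct_inC _ _ _ _
      · exact ct_inC_of e (h2 j (by simp [e, hj])) _ _
    rw [(h1 l).eq H R, Frm.adj_add, Frm.adj_mul, h3, h3, adj_em, H.toO4.adj_rf, ct_inC]

/-- A skew component vanishes. -/
theorem gam_zero (H : O4F B) (R : Fr4 B w w' v v') {m : Fin t} {A γ : EE 4 t F} (hA : InA m A)
    (hγ : InC m γ) (hs : (B.pow t).adj γ = -γ)
    (h : ∀ l, l ≠ m → Com B w l (A + em m (rf B w w) * γ)) : γ = 0 := by
  have h1 : (B.pow t).adj γ = γ := adj_eq_of_com H R fun l => by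
    by_cases e : l = m
    · subst e; exact Com.of_inC hγ
    intro s hs' hc
    have h2 := h l e s hs' hc
    rw [mul_add, add_mul, hA.inC e, add_right_inj, ← mul_assoc, em_comm e, mul_assoc,
      mul_assoc] at h2
    exact em_cancel (rf_ne_zero R.hw.1 R.hw.1) ((InC.em (Ne.symm e) _).mul hγ)
      (hγ.mul (InC.em (Ne.symm e) _)) h2
  refine smul_right_injective _ H.two ?_
  change (2 : F) • γ = (2 : F) • 0
  rw [two_smul, smul_zero]
  nth_rewrite 1 [← h1]
  rw [hs, neg_add_cancel]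

variable {m : Fin t} {g : GG 4 t F}

theorem Com.inv (h : Com B w m (g : EE 4 t F)) : Com B w m ((g⁻¹ : GG 4 t F) : EE 4 t F) :=
  fun s hs e => Commute.units_inv_right (h s hs e)

theorem Com.comm_eps (h : Com B w m (g : EE 4 t F)) (H : O4F B) (R : Fr4 B w w' v v') :
    (g : EE 4 t F) * em m (rf B w w') = em m (rf B w w') * g -
      em m (rf B w w) * H60.Wr.ct m (ph B w') w' g := by
  have h1 := h.eq H R
  have h2 := ct_inC m (ph B w') w (g : EE 4 t F)
  have h3 := ct_inC m (ph B w') w' (g : EE 4 t F)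
  generalize H60.Wr.ct m (ph B w') w (g : EE 4 t F) = X at h1 h2
  generalize H60.Wr.ct m (ph B w') w' (g : EE 4 t F) = Y at h1 h3
  rw [h1, add_mul, mul_add, mul_assoc, ← h3, ← mul_assoc, ← mul_assoc, ← map_mul, ← map_mul,
    rf_mul_rf, rf_mul_rf, R.ww, R.hw.2, h2, zero_smul, one_smul, map_zero, zero_mul, add_zero,
    add_sub_cancel_right]

theorem Com.inC_of_eps (h : Com B w m (g : EE 4 t F)) (H : O4F B) (R : Fr4 B w w' v v')
    (e : cj g (em m (rf B w w')) = em m (rf B w w')) : InC m (g : EE 4 t F) := by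
  have h1 := h.comm_eps H R
  rw [(cj_eq_iff _ _ _).1 e, eq_sub_iff_add_eq, add_eq_left] at h1
  rw [h.eq H R, h1, add_zero]
  exact ct_inC _ _ _ _

theorem Com.exists_gam (h : Com B w m (g : EE 4 t F)) (H : O4F B) (R : Fr4 B w w' v v')
    (hg : g ∈ (B.pow t).Iso) : ∃ γ, InC m γ ∧ (B.pow t).adj γ = -γ ∧
      cj g (em m (rf B w w')) = em m (rf B w w') + em m (rf B w w) * γ := by
  have h2 := ct_inC m (ph B w') w ((g⁻¹ : GG 4 t F) : EE 4 t F)
  have h3 := ct_inC m (ph B w') w' (g : EE 4 t F)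
  have h4 : cj g (em m (rf B w w')) = em m (rf B w w') + em m (rf B w w) *
      -(H60.Wr.ct m (ph B w') w' g * H60.Wr.ct m (ph B w') w ((g⁻¹ : GG 4 t F) : EE 4 t F)) := by
    rw [cj_apply, h.comm_eps H R, sub_mul, Units.mul_inv_cancel_right, mul_neg, ← sub_eq_add_neg,
      ← mul_assoc, h3, mul_assoc, mul_assoc]
    congr 2
    conv_lhs => rw [h.inv.eq H R]
    rw [mul_add, ← mul_assoc, ← map_mul, N_sq R.hw, map_zero, zero_mul, add_zero]
  have h5 := (h3.mul h2).neg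
  generalize -(H60.Wr.ct m (ph B w') w' (g : EE 4 t F) *
    H60.Wr.ct m (ph B w') w ((g⁻¹ : GG 4 t F) : EE 4 t F)) = γ at h4 h5
  refine ⟨γ, h5, em_cancel (rf_ne_zero (B := B) R.hw.1 R.hw.1) (h5.adj B) h5.neg ?_, h4⟩
  have h6 := congrArg (B.pow t).adj h4
  rw [Frm.adj_cj _ (Frm.Iso_le_sim _ hg), Frm.adj_add, Frm.adj_mul, adj_em, adj_em, H.toO4.adj_rf,
    H.toO4.adj_rf, ← h5.adj B] at h6
  have h7 := (cj_eq_iff _ _ _).2 (h.hh H R (a := -1) (by simp)).symm
  rw [H60.Wr.hh, inv_neg, inv_one] at h7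
  simp only [map_add, map_smul, map_one, h4, h6] at h7
  refine smul_right_injective _ H.two ?_
  change (2 : F) • _ = (2 : F) • _
  rw [mul_neg]
  linear_combination (norm := module) -h7

/-- The subgroup `D` of the blueprint. -/
def DD (B : Frm (Fin 4) F) (w : Fin 4 → F) (M : Subgroup (GG 4 t F)) (I : Finset (Fin t))
    (m : Fin t) : Subgroup (GG 4 t F) where
  carrier := {g | g ∈ MI M I ∧ Com B w m (g : EE 4 t F)}
  one_mem' := ⟨one_mem _, Com.of_inC InC.one⟩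
  mul_mem' ha hb := ⟨mul_mem ha.1 hb.1, fun s hs e =>
    Commute.mul_right (ha.2 s hs e) (hb.2 s hs e)⟩
  inv_mem' ha := ⟨inv_mem ha.1, ha.2.inv⟩

/-- The skew elements `N γ`. -/
def WW (B : Frm (Fin 4) F) (w : Fin 4 → F) (I : Finset (Fin t)) (m : Fin t) :
    AddSubgroup (EE 4 t F) where
  carrier := {Z | (∃ γ, InC m γ ∧ (B.pow t).adj γ = -γ ∧ Z = em m (rf B w w) * γ) ∧
    ∀ l ∉ I, InC l Z}
  zero_mem' := ⟨⟨0, InC.zero, by simp, by simp⟩, fun _ _ => InC.zero⟩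
  add_mem' := by
    rintro _ _ ⟨⟨a, a1, a2, rfl⟩, a3⟩ ⟨⟨b, b1, b2, rfl⟩, b3⟩
    exact ⟨⟨a + b, a1.add b1, by rw [Frm.adj_add, a2, b2, neg_add], by rw [mul_add]⟩,
      fun l hl => (a3 l hl).add (b3 l hl)⟩
  neg_mem' := by
    rintro _ ⟨⟨a, a1, a2, rfl⟩, a3⟩
    exact ⟨⟨-a, a1.neg, by rw [Frm.adj_neg, a2], by rw [mul_neg]⟩, fun l hl => (a3 l hl).neg⟩

theorem eu_pow (H : O4 B) (hw : B.f w w = 0) (hv : B.f v w = 0) (n : ℕ) :
    eu B w v ^ n = eu B w ((n : F) • v) := by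
  induction n with
  | zero => simp [O4.eu_zero]
  | succ n ih =>
    rw [pow_succ, ih, Nat.cast_succ, add_smul, one_smul,
      H.eu_add hw (by rw [B.smul_left, hv, mul_zero]) hv]

theorem jobO4CB : JobO4CB.{u} := by
  intro hR F _ _ t B M I m H pw hm hT w hw g hg hc
  have L := H.f.toO4L
  have O := H.f.toO4
  obtain ⟨w', v, v', R⟩ := L.toO4K.fr hw
  have hg' : Com B w m (g : EE 4 t F) := fun s hs e => congrArg Units.val (hc s hs e)
  by_cases hA : ∃ a : F, a ≠ 0 ∧ a ^ 2 ≠ 1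
  · obtain ⟨a, a0, a1⟩ := hA
    exact hg'.inC H.f R a0 a1
  push Not at hA
  have h5 : (3 : F) = 0 := by linear_combination hA 2 O.two
  have : Fact (Nat.Prime 3) := ⟨by norm_num⟩
  have : CharP F 3 := (CharP.charP_iff_prime_eq_zero (by norm_num)).2 (by exact_mod_cast h5)
  have tr : ∀ w ∈ IsoV B, ∀ w' ∈ IsoV B, ∃ h ∈ Gam M, ∃ c : F, (h : Mk 4 F) *ᵥ w = c • w' :=
    fun w hw w' hw' => by
      obtain ⟨h, hh, e⟩ := H.f.trx w hw w' hw'
      exact ⟨h, H.gam hh, 1, by rw [e, one_smul]⟩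
  have N0 : rf B w w ≠ 0 := rf_ne_zero hw.1 hw.1
  have hem : ∀ j ∈ I, j ≠ m → ∀ s ∈ G0 B, emG j s ∈ DD B w M I m := fun j hj jm s hs =>
    ⟨emG_mem_MI H hj hs, Com.of_inC (InC.emG jm.symm s)⟩
  have hout : ∀ x ∈ MI M I, ∀ l ∉ I, InC l (cj x (em m (rf B w w'))) := fun x hx l hl =>
    (hx.2 l hl).cj (InC.em (by rintro rfl; exact hl hm) _)
  obtain ⟨u, hu, eu'⟩ := H.f.eich w hw v R.vw
  have hidx : ¬ 3 ∣ ((CG 4 F m).subgroupOf (DD B w M I m)).index := by
    refine not_dvd_index_of _ {x | ∃ j ∈ I, j ≠ m ∧ (x : GG 4 t F) = emG j u} ?_ ?_ ?_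
      fun x hx => ?_
    · rintro x ⟨j, -, jm, e⟩
      rw [Subgroup.mem_subgroupOf, e]; exact InC.emG jm.symm u
    · rintro x ⟨j, -, -, e⟩ y ⟨l, -, -, e'⟩
      refine Subtype.ext ?_
      rw [Subgroup.coe_mul, Subgroup.coe_mul, e, e']
      by_cases jl : j = l
      · rw [jl]
      · exact Units.ext (em_comm jl _ _)
    · rintro x ⟨j, -, -, e⟩
      refine Subtype.ext (Units.ext ?_)
      rw [Subgroup.coe_pow, e, Units.val_pow_eq_pow_val, coe_emG, ← map_pow, eu',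
        eu_pow O hw.2 R.vw, Nat.cast_ofNat, h5, zero_smul, O4.eu_zero, map_one]
      rfl
    obtain ⟨x, hxM, hxC⟩ := x
    obtain ⟨γ, g1, g2, g3⟩ := hxC.exists_gam H.f R (H.le hxM.1)
    refine hxC.inC_of_eps H.f R ?_
    rw [g3, gam_zero H.f R (InA.em m (rf B w w')) g1 g2 fun j jm => ?_, mul_zero, add_zero]
    rw [← g3]
    by_cases hj : j ∈ I
    swap
    · exact Com.of_inC (hout x hxM j hj)
    have y1 : InC m ((x⁻¹ * emG j u * x : GG 4 t F) : EE 4 t F) :=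
      hx ⟨emG j u, hem j hj jm u hu⟩ ⟨j, hj, jm, rfl⟩
    have y2 : x⁻¹ * emG j u * x ∈ MI M I :=
      mul_mem (mul_mem (inv_mem hxM) (emG_mem_MI H hj hu)) hxM
    have y3 : ((x⁻¹ * emG j u * x : GG 4 t F) : EE 4 t F) = cj x⁻¹ (em j (eu B w v)) := by
      rw [← eu', ← coe_emG, cj_coe, inv_inv]
    have y4 : (((x⁻¹ * emG j u * x : GG 4 t F) : EE 4 t F) - 1) ^ 2 =
        (-B.f v v) • cj x⁻¹ (em j (rf B w w)) := by
      rw [← map_smul, ← map_smul, ← O.eu_sq hw.2 R.vw, map_pow, map_pow, map_sub, map_sub, map_one,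
        map_one, y3]
    obtain ⟨l, -, y5⟩ := hR F t B x⁻¹ j w v L (H.le (inv_mem hxM.1)) hw R.vw R.notMem
      ⟨_, hT (mem_erase y2 y1), y3⟩
    have lm : l ≠ m := by
      rintro rfl
      have := ((y1.sub InC.one).mul (y1.sub InC.one)).smul (-B.f v v)⁻¹
      rw [← sq, y4, inv_smul_smul₀ (neg_ne_zero.2 R.vv)] at this
      exact not_sc_of_sq N0 (N_sq hw) (sc_em.1 (sc_cj.1 (y5.sc this)))
    obtain ⟨b, hb⟩ := y5
    obtain ⟨z, φ, z0, -, -, hz⟩ := maps_of_cj hw.1 (ph_ne_zero hw.1) hb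
    have hz' : z ∈ IsoV B := H59.WrBG.iso_of_le H.le (inv_mem hxM.1) (J := F ∙ w) (fun p hp q hq => by
      obtain ⟨r, rfl⟩ := Submodule.mem_span_singleton.1 hp
      obtain ⟨r', rfl⟩ := Submodule.mem_span_singleton.1 hq
      rw [B.smul_left, B.smul_right, hw.2, mul_zero, mul_zero]) z0 hz.ge
    intro s hs e
    have := congrArg (cj x) ((hz.stIn pw tr (inv_mem hxM.1) hw hz' hw.1 s (H.gam hs) e).comm
      (InC.em lm (rf B w w')))
    simpa only [map_mul, cj_cj_inv] using this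
  obtain ⟨Z, ⟨⟨γ, g1, g2, rfl⟩, g3⟩, hZ⟩ := exists_avg (G := DD B w M I m)
    (fun x => (cj (x : GG 4 t F)).toLinearEquiv.toLinearMap.toAddMonoidHom)
    (fun x y X => cj_mul _ _ X) ((CG 4 F m).subgroupOf (DD B w M I m)) (em m (rf B w w'))
    (fun x hx => InC.cj_em hx _) (WW B w I m) fun x => by
      obtain ⟨γ, g1, g2, g3⟩ := x.2.2.exists_gam H.f R (H.le x.2.1.1)
      exact ⟨⟨γ, g1, g2, sub_eq_iff_eq_add'.2 g3⟩, fun l hl =>
        (hout x x.2.1 l hl).sub (InC.em (by rintro rfl; exact hl hm) _)⟩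
  generalize ((CG 4 F m).subgroupOf (DD B w M I m)).index = n at hidx hZ
  rw [← Nat.cast_smul_eq_nsmul F] at hZ
  have hγ : γ = 0 := gam_zero H.f R ((InA.em m (rf B w w')).smul (n : F)) g1 g2 fun l lm => by
    by_cases hl : l ∈ I
    · exact fun s hs _ => (cj_eq_iff _ _ _).1 (hZ ⟨emG l s, hem l hl lm s hs⟩)
    · exact Com.of_inC (((InC.em lm _).smul _).add (g3 l hl))
  have h6 : cj g ((n : F) • em m (rf B w w') + em m (rf B w w) * γ) = _ := hZ ⟨g, hg, hg'⟩
  rw [hγ, mul_zero, add_zero, map_smul] at h6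
  exact hg'.inC_of_eps H.f R
    (smul_right_injective _ (fun e => hidx ((CharP.cast_eq_zero_iff F 3 n).1 e)) h6)

end H26.O4
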