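import Cfsg.Agent.H13.T3A
import Cfsg.Agent.H62.Tv

/-! Tower C6R3, job FinL: `SL₃` on a block together with `x` and the homology `h_x` generates
`SL₉`. -/

set_option autoImplicit false
set_option linter.unusedSectionVars false

namespace H26.T3

open Matrix hiding mul_inv_rev
open Cfsg Cfsg.Geo H25 H60.L3 H13.T3 H62 Module

universe u

section dual

variable {F V : Type*} [Field F] [AddCommGroup V] [Module F V] {H : Subgroup (V ≃ₗ[F] V)}

/-- the whole root subgroup lies in `H` -/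
def Rt (H : Subgroup (V ≃ₗ[F] V)) (φ : Dual F V) (u : V) : Prop := ∀ c : F, HasTv H (c • φ) u

theorem Rt.trans {φ ψ : Dual F V} {u w : V} (h1 : Rt H φ u) (h2 : Rt H ψ w) (a1 : φ u = 0)
    (a2 : ψ w = 0) (a3 : φ w = 0) (a4 : ψ u = 1) : Rt H φ w := fun c => by
  have := (h1 c).comm_left (by simp [a1]) (h2 1) (by simp [a2]) (by simp [a3])
  simpa [a4] using this

/-- A family of vectors with a dual family of functionals whose root subgroups lie in `H`. -/
theorem mem_of_dual [FiniteDimensional F V] {κ : Type*} [Fintype κ] [DecidableEq κ] [Nonempty κ]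
    (b : κ → V) (f : κ → Dual F V) (hf : ∀ i j, f i (b j) = if i = j then 1 else 0)
    (hc : Fintype.card κ = finrank F V) (h : ∀ i j, i ≠ j → Rt H (f j) (b i)) (e : V ≃ₗ[F] V)
    (he : LinearMap.det (e : V →ₗ[F] V) = 1) : e ∈ H := by
  have li : LinearIndependent F b := LinearIndependent.of_pairwise_dual_eq_zero_one b f
    (fun i j k => (hf i j).trans (if_neg k)) fun i => by rw [hf, if_pos rfl]
  let B := basisOfLinearIndependentOfCardEqFinrank li hc
  have hB : ∀ i, B i = b i := fun i => by simp [B]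
  refine mem_of_det_eq_one_of_basis B (fun i j k c => ?_) e he
  have : B.coord j = f j := B.ext fun l => by
    rw [hB l, hf, ← hB l, Basis.coord_apply, B.repr_self, Finsupp.single_apply]
    exact if_congr eq_comm rfl rfl
  rw [this, hB]
  exact h i j k c

/-- Three blocks of size three. -/
theorem all_rt (b : Fin 3 × Fin 3 → V) (f : Fin 3 × Fin 3 → Dual F V)
    (hf : ∀ i j, f i (b j) = if i = j then 1 else 0)
    (h1 : ∀ a i j, i ≠ j → Rt H (f (a, j)) (b (a, i)))
    (h2 : ∀ a, Rt H (f (a, 2)) (b (a + 1, 1))) (i j : Fin 3 × Fin 3) (hij : i ≠ j) :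
    Rt H (f j) (b i) := by
  have tr : ∀ i k j, i ≠ k → k ≠ j → i ≠ j → Rt H (f k) (b i) → Rt H (f j) (b k) →
      Rt H (f j) (b i) := fun i k j n1 n2 n3 r1 r2 =>
    r2.trans r1 (by rw [hf, if_neg n2.symm]) (by rw [hf, if_neg n1.symm])
      (by rw [hf, if_neg n3.symm]) (by rw [hf, if_pos rfl])
  have n1 : ∀ a : Fin 3, a + 1 ≠ a := by decide
  have n2 : ∀ a : Fin 3, a + 1 + 1 ≠ a := by decide
  have k1 : ∀ a i, Rt H (f (a, 2)) (b (a + 1, i)) := fun a i => by
    by_cases e : i = 1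
    · exact e ▸ h2 a
    · exact tr _ (a + 1, 1) _ (by simpa using e) (by simp [n1]) (by simp [n1]) (h1 _ _ _ e) (h2 a)
  have k2 : ∀ a i j, Rt H (f (a, j)) (b (a + 1, i)) := fun a i j => by
    by_cases e : 2 = j
    · exact e ▸ k1 a i
    · exact tr _ (a, 2) _ (by simp [n1]) (by simpa using e) (by simp [n1]) (k1 a i) (h1 _ _ _ e)
  obtain ⟨a, i⟩ := i
  obtain ⟨c, j⟩ := j
  obtain rfl | rfl | rfl : a = c ∨ a = c + 1 ∨ a = c + 1 + 1 := by clear hij; revert a c; decide
  · exact h1 _ _ _ (by simpa using hij)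
  · exact k2 _ _ _
  · exact tr _ (c + 1, 0) _ (by simp [n1]) (by simp [n1]) hij (k2 _ _ _) (k2 _ _ _)

end dual

variable {F : Type*} [Field F] {ι : Type} [Fintype ι] [DecidableEq ι] {G : Subgroup (GL ι F)}
  {U : Matrix ι (Fin 3) F} {W : Matrix (Fin 3) ι F}

/-- a row as a functional -/
def rf (Q : Matrix (Fin 3) ι F) (j : Fin 3) : Dual F (ι → F) := LinearMap.proj j ∘ₗ Q.mulVecLin

/-- a column -/
def cl (P : Matrix ι (Fin 3) F) (i : Fin 3) : ι → F := P *ᵥ Pi.single i 1

theorem rf_apply (Q : Matrix (Fin 3) ι F) (j : Fin 3) (v : ι → F) : rf Q j v = (Q *ᵥ v) j := rfl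

theorem rf_cl (Q : Matrix (Fin 3) ι F) (P : Matrix ι (Fin 3) F) (i j : Fin 3) :
    rf Q j (cl P i) = (Q * P) j i := by
  rw [rf_apply, cl, mulVec_mulVec, mulVec_single_one]; rfl

/-- `G` as a group of linear automorphisms -/
noncomputable abbrev MM (G : Subgroup (GL ι F)) := G.map (toLE (ι := ι) (F := F)).toMonoidHom

theorem tv_conj {g : GL ι F} (hg : g ∈ G) {i j : Fin 3} {c : F} (h : HasTv (MM G) (c • rf W j) (cl U i)) :
    HasTv (MM G) (c • rf (W * g⁻¹.val) j) (cl (g.val * U) i) := by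
  have := h.conj' (g := toLE g) (ψ := c • rf (W * g⁻¹.val) j)
    (Subgroup.mem_map_of_mem _ hg) fun v => by
    simp only [LinearMap.smul_apply, rf_apply, toLE_apply, mulVec_mulVec, Matrix.mul_assoc,
      Units.inv_mul, Matrix.mul_one]
  rwa [toLE_apply, cl, mulVec_mulVec] at this

theorem rt_of_big (h : Big (S3 F) G U W) {i j : Fin 3} (hij : i ≠ j) :
    Rt (MM G) (rf W j) (cl U i) := fun c => by
  obtain ⟨g, hg, e⟩ := h (GeneralLinearGroup.mkOfDetNeZero (transvection i j c)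
    (by rw [det_transvection_of_ne _ _ hij]; exact one_ne_zero))
    (H25.mem_specialLinear.2 (det_transvection_of_ne _ _ hij c))
  refine ⟨_, ⟨g, hg, rfl⟩, fun v => ?_⟩
  have e1 : g.val = 1 + U * single i j c * W := by
    rw [e]; congr 3; exact add_sub_cancel_left _ _
  refine (toLE_apply g v).trans ?_
  rw [e1, add_mulVec, one_mulVec, ← mulVec_mulVec, ← mulVec_mulVec, single_mulVec,
    LinearMap.smul_apply, rf_apply, cl, ← mulVec_smul, ← Pi.single_smul, smul_eq_mul, smul_eq_mul,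
    mul_one]
  rfl

theorem jobFinL : JobFinL.{u} := by
  rintro F _ _ ω R G h ⟨d, x, y, y', U, W, hs, hf, hb⟩ g hg
  have hω := h.om
  have hd := h.cube d hs.md
  have hx := h.cube x hs.mx
  have xd : x * d = ω • (d * x) := by rw [hs.xd, sc_mul]
  have xZ : x ∉ scalars (Fin 9) F := fun k => by
    obtain ⟨c, rfl⟩ := mem_Z.1 k
    rw [smul_mul_assoc, mul_smul_comm, one_mul, mul_one] at xd
    exact hω.ne_one (congrArg Units.val (smul_inj (g := c • d) (xd.symm.trans (one_smul _ _).symm)))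
  have xG := h.le hs.mx
  have hG := h.hmem x hs.mx xZ
  have wu := hf.wu
  have sw : ∀ m : Matrix (Fin 9) (Fin 9) F, pj d * m * pj d = 0 → W * (m * U) = 0 := fun m k => by
    have : W * (pj d * m * pj d) * U = W * (m * U) := by
      rw [← hf.uw]
      simp only [Matrix.mul_assoc, wu, Matrix.mul_one]
      rw [← Matrix.mul_assoc, wu, Matrix.one_mul]
    rw [← this, k, Matrix.mul_zero, Matrix.zero_mul]
  have w1 : W * (x.val * U) = 0 := sw _ (pj_sandwich hω hd xd)
  have w2 : W * (x.val * (x.val * U)) = 0 := by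
    rw [← Matrix.mul_assoc x.val]
    exact sw _ (pj_sandwich' (x := x * x) hω hd
      (by rw [mul_assoc x, xd, mul_smul_comm, rel_mul xd, smul3 hω]))
  have x3 : ∀ m : Matrix (Fin 9) (Fin 3) F, x.val * (x.val * (x.val * m)) = m := fun m => by
    rw [← Matrix.mul_assoc, ← Matrix.mul_assoc, Matrix.mul_assoc x.val, val_cube hx, Matrix.one_mul]
  have xi : x⁻¹.val = x.val * x.val := by rw [inv_eq_sq hx, Units.val_mul]
  let P : Fin 3 → Matrix (Fin 9) (Fin 3) F := ![U, x.val * U, x.val * (x.val * U)]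
  let Q : Fin 3 → Matrix (Fin 3) (Fin 9) F := ![W, W * (x.val * x.val), W * x.val]
  have QP : ∀ a c, Q a * P c = if a = c then 1 else 0 := fun a c => by
    fin_cases a <;> fin_cases c <;> simp [P, Q, Matrix.mul_assoc, wu, w1, w2, x3]
  have xP : ∀ a, x.val * P a = P (a + 1) := fun a => by
    fin_cases a <;> simp [P, x3]
  have xQ : ∀ a, Q a * x⁻¹.val = Q (a + 1) := fun a => by
    fin_cases a <;> simp [Q, xi, Matrix.mul_assoc, val_cube hx]
  have hf' : ∀ i j : Fin 3 × Fin 3, rf (Q i.1) i.2 (cl (P j.1) j.2) = if i = j then 1 else 0 :=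
    fun i j => by
      rw [rf_cl, QP]
      by_cases e : i.1 = j.1 <;> simp [e, one_apply, Prod.ext_iff]
  have st : ∀ {a c i j}, Rt (MM G) (rf (Q a) j) (cl (P c) i) →
      Rt (MM G) (rf (Q (a + 1)) j) (cl (P (c + 1)) i) := fun k e => xP _ ▸ xQ _ ▸ tv_conj xG (k e)
  have ind : ∀ p : Fin 3 → Prop, p 0 → (∀ a, p a → p (a + 1)) → ∀ a, p a := fun p p0 p1 a => by
    fin_cases a
    exacts [p0, p1 0 p0, p1 1 (p1 0 p0)]
  have loc : ∀ a i j, i ≠ j → Rt (MM G) (rf (Q a) j) (cl (P a) i) :=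
    ind _ (fun i j k => rt_of_big hb k) fun a k i j e => st (k i j e)
  have e3 := inv_ne_zero hω.ne
  have hv : ∀ c : F, W * ((1 + c • pj x) * U) = (1 + c * 3⁻¹) • 1 := fun c => by
    simp only [pj, Matrix.add_mul, Matrix.mul_add, Matrix.smul_mul, Matrix.mul_smul, Matrix.one_mul,
      Matrix.mul_assoc, wu, w1, w2, add_zero]
    module
  have hv' : Q 1 * ((hm ω x).val * U) = (((ω : F) - 1) * 3⁻¹) • 1 := by
    simp only [Q, hm_val hω hx, pj, Matrix.add_mul, Matrix.mul_add, Matrix.smul_mul, Matrix.mul_smul,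
      Matrix.one_mul, Matrix.mul_assoc, wu, w1, w2, add_zero, x3, zero_add, cons_val_one,
      cons_val_zero, smul_smul]
  have mix : Rt (MM G) (rf (Q 0) 2) (cl (P (0 + 1)) 1) := fun c => by
    have a0 : (1 + ((ω : F) ^ 2 - 1) * 3⁻¹) ≠ 0 := fun e => by
      have e1 := hω.eq
      have e2 := mul_inv_cancel₀ hω.ne
      apply hω.ne
      grind
    have a1 : ((ω : F) - 1) * 3⁻¹ ≠ 0 := mul_ne_zero (sub_ne_zero.2 hω.ne_one) e3
    have t1 := tv_conj hG (rt_of_big hb (show (0 : Fin 3) ≠ 1 by decide) 1)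
    have t2 := (rt_of_big hb (show (1 : Fin 3) ≠ 2 by decide)
      ((1 + ((ω : F) ^ 2 - 1) * 3⁻¹)⁻¹ * (((ω : F) - 1) * 3⁻¹)⁻¹ * c)).comm_left
      (by simp [rf_cl, wu]) t1 (by
        rw [one_smul, rf_cl, Matrix.mul_assoc, ← Matrix.mul_assoc _ _ U, Units.inv_mul,
          Matrix.one_mul, wu]; simp) (by simp [rf_cl, hm_val hω hx, hv])
    rw [one_smul, rf_cl, Matrix.mul_assoc, hm_inv_val hω hx, hv, smul_smul] at t2
    have t3 := (loc 1 1 0 (by decide) 1).comm_right (by simp [rf_cl, QP]) t2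
      (by simp [rf_cl, hm_val hω hx, hv]) (by simp [rf_cl, P, w1])
    rw [one_smul, rf_cl, hv', ← HasTv.smul_left_iff, smul_smul] at t3
    simp only [Matrix.smul_apply, one_apply_eq, smul_eq_mul, mul_one] at t3
    rwa [mul_assoc _ _ c, mul_inv_cancel_left₀ a0, mul_inv_cancel_left₀ a1] at t3
  obtain ⟨k, hk, e⟩ := mem_of_dual (H := MM G) (fun i : Fin 3 × Fin 3 => cl (P i.1) i.2)
    (fun i => rf (Q i.1) i.2) hf' (by simp) (all_rt _ _ hf' loc
      (ind _ mix fun a k => st k)) (toLE g) ((mem_specialLinear_iff g).1 hg)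
  exact toLE.injective e ▸ hk

end H26.T3
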